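import Cfsg.Agent.KegelWielandt.Main
import Cfsg.Agent.Hall.Basic
import Cfsg.Agent.PReduced.Hom

/-!
Consequences of the theorem of Kegel and Wielandt.
-/

set_option autoImplicit false
set_option linter.style.haveILetI false

namespace CfsgLib.KegelWielandt

open scoped Pointwise

universe u

theorem normal_over_factor_aux : ∀ (k : ℕ) {G : Type u} [Group G] [Finite G], Nat.card G = k →
    ∀ A B : Subgroup G, Group.IsNilpotent A → Group.IsNilpotent B → Factor A B → (A ≠ ⊤ ∨ B ≠ ⊤) →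
    ∃ N : Subgroup G, N.Normal ∧ N ≠ ⊤ ∧ (A ≤ N ∨ B ≤ N) := by
  intro k
  induction k using Nat.strong_induction_on with
  | _ k IH =>
  intro G _ _ hk A B hA hB hAB hproper
  haveI hsol : Group.IsSolvable G := kegel_wielandt hA hB hAB
  -- one of the factors is everything
  have hnil : ∀ X Y : Subgroup G, Group.IsNilpotent X → X = ⊤ → Y ≠ ⊤ →
      ∃ N : Subgroup G, N.Normal ∧ N ≠ ⊤ ∧ Y ≤ N := by
    intro X Y hX hXt hY
    haveI := hX
    haveI : Group.IsNilpotent G := Group.nilpotent_of_surjective X.subtype fun g => ⟨⟨g, hXt ▸ trivial⟩, rfl⟩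
    obtain ⟨M, hM, hYM⟩ := (eq_top_or_exists_le_coatom Y).resolve_left hY
    exact ⟨M, Subgroup.NormalizerCondition.normal_of_coatom M Group.normalizerCondition_of_isNilpotent hM, hM.1, hYM⟩
  rcases eq_or_ne A ⊤ with hAt | hAt
  · obtain ⟨N, h1, h2, h3⟩ := hnil A B hA hAt (hproper.resolve_left fun h => h hAt)
    exact ⟨N, h1, h2, Or.inr h3⟩
  rcases eq_or_ne B ⊤ with hBt | hBt
  · obtain ⟨N, h1, h2, h3⟩ := hnil B A hB hBt hAt
    exact ⟨N, h1, h2, Or.inl h3⟩
  -- reduction through a normal subgroup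
  have red : ∀ L : Subgroup G, L.Normal → L ≠ ⊥ → (A ⊔ L ≠ ⊤ ∨ B ⊔ L ≠ ⊤) →
      ∃ N : Subgroup G, N.Normal ∧ N ≠ ⊤ ∧ (A ≤ N ∨ B ≤ N) := by
    intro L hL hL0 h
    haveI := hL
    set f := QuotientGroup.mk' L
    have hmap : ∀ X : Subgroup G, X ⊔ L ≠ ⊤ → X.map f ≠ ⊤ := fun X hX hm => hX (by
      have e := congrArg (Subgroup.comap f) hm
      rwa [Subgroup.comap_map_eq, QuotientGroup.ker_mk', Subgroup.comap_top] at e)
    obtain ⟨N, hN, hNt, hle⟩ := IH _ (by
        rw [← hk, L.card_eq_card_quotient_mul_card_subgroup]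
        exact lt_mul_of_one_lt_right Nat.card_pos ((Subgroup.one_lt_card_iff_ne_bot L).2 hL0))
      (rfl : Nat.card (G ⧸ L) = _) (A.map f) (B.map f) (isNilpotent_map hA f) (isNilpotent_map hB f)
      (hAB.map (QuotientGroup.mk'_surjective L)) (h.imp (hmap A) (hmap B))
    refine ⟨N.comap f, hN.comap f, fun e => hNt ?_, hle.imp Subgroup.map_le_iff_le_comap.1 Subgroup.map_le_iff_le_comap.1⟩
    rw [← Subgroup.map_comap_eq_self_of_surjective (QuotientGroup.mk'_surjective L) N, e,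
      Subgroup.map_top_of_surjective _ (QuotientGroup.mk'_surjective L)]
  haveI : Nontrivial G := by
    by_contra h
    rw [not_nontrivial_iff_subsingleton] at h
    exact hAt (eq_top_iff.2 fun g _ => (Subsingleton.elim 1 g) ▸ A.one_mem)
  obtain ⟨N, hN⟩ := CfsgLib.Hall.exists_isMinNormal (G := G)
  obtain ⟨p, hp, hNab, hNp, -⟩ := hN.elementaryAbelian
  haveI := Fact.mk hp
  obtain ⟨hNn, hN0, hNmin⟩ := hN
  haveI := hNn
  by_contra hgoal
  have hbad : ∀ L : Subgroup G, L.Normal → L ≠ ⊥ → A ⊔ L = ⊤ ∧ B ⊔ L = ⊤ := fun L hL h0 => by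
    by_contra h
    exact hgoal (red L hL h0 (by tauto))
  have key : ∀ X : Subgroup G, Group.IsNilpotent X → X ≠ ⊤ → (∀ L : Subgroup G, L.Normal → L ≠ ⊥ → X ⊔ L = ⊤) →
      X ⊓ N = ⊥ ∧ ¬ p ∣ Nat.card X := by
    intro X hX hXt hXs
    have hcore : ∀ L : Subgroup G, L.Normal → L ≤ X → L = ⊥ := fun L hL hLX => by
      by_contra h
      exact hXt (by rw [← hXs L hL h]; exact (sup_eq_left.2 hLX).symm)
    have hnorm : ∀ Y : Subgroup G, X ≤ Subgroup.normalizer (Y : Set G) → N ≤ Subgroup.normalizer (Y : Set G) →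
        Y.Normal := fun Y h1 h2 =>
      Subgroup.normalizer_eq_top_iff.1 (top_le_iff.1 (hXs N hNn hN0 ▸ sup_le h1 h2))
    have hab : ∀ n ∈ N, ∀ m ∈ N, n * m = m * n := fun n hn m hm =>
      congrArg Subtype.val (hNab.is_comm.comm (⟨n, hn⟩ : N) ⟨m, hm⟩)
    refine ⟨hcore _ (hnorm _ ?_ ?_) inf_le_left, fun hpX => ?_⟩
    · exact fun x hx => Subgroup.mem_normalizer_fintype fun y hy =>
        ⟨X.mul_mem (X.mul_mem hx hy.1) (X.inv_mem hx), hNn.conj_mem y hy.2 x⟩
    · exact fun n hn => Subgroup.mem_normalizer_fintype fun y hy => by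
        rwa [hab n hn y hy.2, mul_inv_cancel_right]
    set S := pPart p X
    have hS : IsPGroup p S := isPGroup_pPart p X
    have hNS : S ≤ Subgroup.normalizer (N : Set G) := fun x _ => by
      rw [Subgroup.normalizer_eq_top_iff.2 hNn]; trivial
    have hP : IsPGroup p (N ⊔ S : Subgroup G) := hNp.to_sup_of_normal_left hS
    have hne : N.subgroupOf (N ⊔ S) ≠ ⊥ := fun h => hN0 (by
      rw [Subgroup.subgroupOf_eq_bot, disjoint_iff, inf_sup_self] at h
      exact h)
    have h1 := CfsgLib.PReduced.inf_center_ne_bot hP hne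
    have hC : N ≤ Subgroup.centralizer (S : Set G) := by
      set K := N ⊓ Subgroup.centralizer (S : Set G)
      have hKn : K.Normal := hnorm K (fun x hx => Subgroup.mem_normalizer_fintype fun y hy =>
          ⟨hNn.conj_mem y hy.1 x, Subgroup.mem_centralizer_iff.2 fun s hs => by
            have h := Subgroup.mem_centralizer_iff.1 hy.2 _ (conj_mem_of_mem_normalizer' (le_normalizer_pPart p X hx) hs)
            calc s * (x * y * x⁻¹) = x * (x⁻¹ * s * x * y) * x⁻¹ := by group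
              _ = x * (y * (x⁻¹ * s * x)) * x⁻¹ := by rw [h]
              _ = x * y * x⁻¹ * s := by group⟩)
        (fun n hn => Subgroup.mem_normalizer_fintype fun y hy => by rwa [hab n hn y hy.1, mul_inv_cancel_right])
      have hK0 : K ≠ ⊥ := by
        obtain ⟨⟨⟨w, hw⟩, hwN, hwC⟩, hw1⟩ := Subgroup.ne_bot_iff_exists_ne_one.1 h1
        intro hb
        have hwK : w ∈ K := ⟨hwN, Subgroup.mem_centralizer_iff.2 fun s hs =>
          congrArg Subtype.val (Subgroup.mem_center_iff.1 hwC ⟨s, Subgroup.mem_sup_right hs⟩)⟩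
        rw [hb, Subgroup.mem_bot] at hwK
        exact hw1 (Subtype.ext (Subtype.ext hwK))
      exact (hNmin K hKn inf_le_left).resolve_left hK0 ▸ inf_le_right
    refine pPart_ne_bot hX hpX (hcore S (hnorm S (le_normalizer_pPart p X) fun n hn => ?_) (pPart_le p X))
    exact Subgroup.mem_normalizer_fintype fun s hs => by
      rwa [← Subgroup.mem_centralizer_iff.1 (hC hn) s hs, mul_inv_cancel_right]
  obtain ⟨hA0, hpA⟩ := key A hA hAt fun L hL h => (hbad L hL h).1
  obtain ⟨hB0, hpB⟩ := key B hB hBt fun L hL h => (hbad L hL h).2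
  obtain ⟨hAN, hBN⟩ := hbad N hNn hN0
  have hc : ∀ X : Subgroup G, X ⊔ N = ⊤ → X ⊓ N = ⊥ → Nat.card X * Nat.card N = Nat.card G := fun X h1 h2 => by
    have h := CfsgLib.Hall.card_sup_mul_card_inf N X
    rw [sup_comm, h1, inf_comm, h2, Subgroup.card_bot, mul_one, Subgroup.card_top] at h
    rw [h, mul_comm]
  have hcA := hc A hAN hA0
  have hcB := hc B hBN hB0
  have hAB' : Nat.card A = Nat.card B := Nat.eq_of_mul_eq_mul_right Nat.card_pos (hcA.trans hcB.symm)
  obtain ⟨i, hi⟩ := IsPGroup.iff_card.1 hNp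
  have hHall : (Nat.card A).Coprime A.index := by
    have h := A.card_mul_index.trans hcA.symm
    rw [Nat.eq_of_mul_eq_mul_left Nat.card_pos h, hi]
    exact Nat.Coprime.pow_right i (hp.coprime_iff_not_dvd.2 hpA).symm
  obtain ⟨g, hg⟩ := CfsgLib.Hall.wielandt_nilpotent_hall A B hA hHall fun q _ hq => hAB' ▸ hq
  have hge : B = MulAut.conj g • A := Subgroup.eq_of_le_of_card_ge hg (by
    rw [CfsgLib.Hall.card_conj_smul, hAB'])
  obtain ⟨b, hb, a, ha, rfl⟩ := hAB.symm g
  have e : B = A := by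
    refine Subgroup.eq_of_le_of_card_ge (fun x hx => ?_) hAB'.le
    have h1 : b * x * b⁻¹ ∈ MulAut.conj (b * a) • A := hge ▸ B.mul_mem (B.mul_mem hb hx) (B.inv_mem hb)
    obtain ⟨y, hy, hy'⟩ := h1
    have hy2 : b * a * y * (b * a)⁻¹ = b * x * b⁻¹ := hy'
    have e : x = a * y * a⁻¹ := by
      calc x = b⁻¹ * (b * x * b⁻¹) * b := by group
        _ = _ := by rw [← hy2]; group
    exact e ▸ A.mul_mem (A.mul_mem ha hy) (A.inv_mem ha)
  refine hAt (eq_top_iff.2 fun x _ => ?_)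
  obtain ⟨u, hu, v, hv, rfl⟩ := hAB x
  exact A.mul_mem hu (e ▸ hv)

theorem product_sylow_subgroup {G : Type u} [Group G] [Finite G] {A B : Subgroup G} (hA : Group.IsNilpotent A)
    (hB : Group.IsNilpotent B) (hcop : (Nat.card A).Coprime (Nat.card B)) (hAB : Factor A B)
    (p q : ℕ) [hp : Fact p.Prime] [hq : Fact q.Prime] (P : Sylow p A) (Q : Sylow q B) :
    ∃ S : Subgroup G, (S : Set G) = (((P : Subgroup A).map A.subtype : Subgroup G) : Set G) *
      (((Q : Subgroup B).map B.subtype : Subgroup G) : Set G) := by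
  haveI := kegel_wielandt hA hB hAB
  set P' := (P : Subgroup A).map A.subtype with hP'
  set Q' := (Q : Subgroup B).map B.subtype with hQ'
  rcases eq_or_ne P' ⊥ with hP0 | hP0
  · exact ⟨Q', by rw [hP0, Subgroup.coe_bot, Set.singleton_mul]; simp⟩
  rcases eq_or_ne Q' ⊥ with hQ0 | hQ0
  · exact ⟨P', by rw [hQ0, Subgroup.coe_bot, Set.mul_singleton]; simp⟩
  have hcP : Nat.card P' = Nat.card (P : Subgroup A) := Subgroup.card_map_of_injective A.subtype_injective
  have hcQ : Nat.card Q' = Nat.card (Q : Subgroup B) := Subgroup.card_map_of_injective B.subtype_injective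
  have hdvd : ∀ {r : ℕ} [Fact r.Prime] {X : Subgroup G} (R : Sylow r X), (R : Subgroup X).map X.subtype ≠ ⊥ → r ∣ Nat.card X := by
    intro r hr X R hR
    obtain ⟨i, hi⟩ := IsPGroup.iff_card.1 R.2
    refine dvd_trans ?_ ((R : Subgroup X).card_subgroup_dvd_card)
    rw [hi]
    refine dvd_pow_self r fun h => hR ?_
    rw [Subgroup.map_eq_bot_iff_of_injective _ X.subtype_injective, ← Subgroup.card_eq_one, hi, h, pow_zero]
  have hpA := hdvd P hP0
  have hqB := hdvd Q hQ0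
  set m := Nat.card (P : Subgroup A) * Nat.card (Q : Subgroup B)
  set n := (P : Subgroup A).index * (Q : Subgroup B).index
  have hG : Nat.card G = m * n := by
    have h := hAB.card_mul
    rw [CfsgLib.Hall.inf_eq_bot_of_coprime_card hcop, Subgroup.card_bot, mul_one] at h
    rw [h, ← (P : Subgroup A).card_mul_index, ← (Q : Subgroup B).card_mul_index]
    ring
  have hcopPn : (Nat.card (P : Subgroup A)).Coprime n := by
    obtain ⟨i, hi⟩ := IsPGroup.iff_card.1 P.2
    rw [hi]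
    refine Nat.Coprime.pow_left i (hp.out.coprime_iff_not_dvd.2 fun h => ?_)
    rcases hp.out.dvd_mul.1 h with h | h
    · exact P.not_dvd_index h
    · exact not_dvd_of_coprime hp.out hcop hpA (h.trans (Q : Subgroup B).index_dvd_card)
  have hcopQn : (Nat.card (Q : Subgroup B)).Coprime n := by
    obtain ⟨i, hi⟩ := IsPGroup.iff_card.1 Q.2
    rw [hi]
    refine Nat.Coprime.pow_left i (hq.out.coprime_iff_not_dvd.2 fun h => ?_)
    rcases hq.out.dvd_mul.1 h with h | h
    · exact not_dvd_of_coprime hq.out hcop.symm hqB (h.trans (P : Subgroup A).index_dvd_card)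
    · exact Q.not_dvd_index h
  have hmn : m.Coprime n := hcopPn.mul_left hcopQn
  obtain ⟨H, hH, hPH⟩ := CfsgLib.Hall.exists_hall_ge m n hG hmn P' (hcP ▸ hcopPn)
  obtain ⟨g, hg⟩ := CfsgLib.Hall.exists_conj_ge m n hG hmn H Q' hH (hcQ ▸ hcopQn)
  obtain ⟨b, hb, a, ha, rfl⟩ := hAB.symm g
  set S := MulAut.conj a • H
  have hnP : (P : Subgroup A).Normal := CfsgLib.Hall.NormComplement.sylow_normal_of_nilpotent hA p P
  have hnQ : (Q : Subgroup B).Normal := CfsgLib.Hall.NormComplement.sylow_normal_of_nilpotent hB q Q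
  have h1 : P' ≤ S := by
    rintro _ ⟨x, hx, rfl⟩
    rw [Subgroup.mem_pointwise_smul_iff_inv_smul_mem]
    refine hPH ⟨⟨a, ha⟩⁻¹ * x * ⟨a, ha⟩⁻¹⁻¹, hnP.conj_mem x hx ⟨a, ha⟩⁻¹, ?_⟩
    simp
  have h2 : Q' ≤ S := by
    rintro _ ⟨x, hx, rfl⟩
    obtain ⟨y, hy, hye⟩ := hg ⟨⟨b, hb⟩ * x * ⟨b, hb⟩⁻¹, hnQ.conj_mem x hx _, rfl⟩
    refine ⟨y, hy, ?_⟩
    have e : b * a * y * (b * a)⁻¹ = b * (x : G) * b⁻¹ := hye
    change a * y * a⁻¹ = (x : G)
    calc a * y * a⁻¹ = b⁻¹ * (b * a * y * (b * a)⁻¹) * b := by group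
      _ = _ := by rw [e]; group
  refine ⟨S, (Set.eq_of_subset_of_ncard_le ?_ ?_ (Set.toFinite _)).symm⟩
  · rintro _ ⟨x, hx, y, hy, rfl⟩
    exact S.mul_mem (h1 hx) (h2 hy)
  rw [← Nat.card_coe_set_eq, ← Nat.card_coe_set_eq]
  have h := CfsgLib.Hall.Struct.card_mul_inf P' Q'
  rw [CfsgLib.Hall.inf_eq_bot_of_coprime_card ((hcop.coprime_dvd_left (Subgroup.card_dvd_of_le
    (Subgroup.map_subtype_le _))).coprime_dvd_right (Subgroup.card_dvd_of_le (Subgroup.map_subtype_le _))),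
    Subgroup.card_bot, mul_one] at h
  rw [h, hcP, hcQ]
  exact ((CfsgLib.Hall.card_conj_smul a H).trans hH).le

end CfsgLib.KegelWielandt
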