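import Cfsg.Agent.KegelWielandt.Nilp
import Cfsg.Agent.CharBasics.Burnside

/-!
Factorizations of a simple group by nilpotent subgroups of coprime orders: first reductions.
-/

set_option autoImplicit false
set_option linter.style.haveILetI false

namespace CfsgLib.KegelWielandt

variable {G : Type*} [Group G]

/-- The situation of a least counterexample to the theorem of Wielandt. -/
structure Ctx (A B : Subgroup G) : Prop where
  simple : IsSimpleGroup G
  nsol : ¬ Group.IsSolvable G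
  hA : Group.IsNilpotent A
  hB : Group.IsNilpotent B
  cop : (Nat.card A).Coprime (Nat.card B)
  fac : Factor A B
  sol : ∀ H : Subgroup G, H ≠ ⊤ → FactorizedIn A B H → Group.IsSolvable H
  twoA : ∀ p : ℕ, ∃ q : ℕ, q.Prime ∧ q ∣ Nat.card A ∧ q ≠ p
  twoB : ∀ p : ℕ, ∃ q : ℕ, q.Prime ∧ q ∣ Nat.card B ∧ q ≠ p

namespace Ctx

variable {A B : Subgroup G}

theorem symm (c : Ctx A B) : Ctx B A :=
  ⟨c.simple, c.nsol, c.hB, c.hA, c.cop.symm, c.fac.symm, fun H h hf => c.sol H h hf.symm, c.twoB, c.twoA⟩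

theorem bot_or_top (c : Ctx A B) {N : Subgroup G} (hN : N.Normal) : N = ⊥ ∨ N = ⊤ :=
  haveI := c.simple
  hN.eq_bot_or_eq_top

theorem left_ne_top (c : Ctx A B) : A ≠ ⊤ := fun h => c.nsol <| by
  haveI := c.hA
  haveI : Group.IsNilpotent G := Group.nilpotent_of_surjective A.subtype fun g => ⟨⟨g, h ▸ trivial⟩, rfl⟩
  infer_instance

theorem centralizer_ne_top (c : Ctx A B) {z : G} (hz : z ≠ 1) : Subgroup.centralizer ({z} : Set G) ≠ ⊤ := by
  intro h
  have hzc : z ∈ Subgroup.center G := Subgroup.mem_center_iff.2 fun g =>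
    Subgroup.mem_centralizer_singleton_iff.1 (show g ∈ Subgroup.centralizer ({z} : Set G) by rw [h]; trivial)
  rcases c.bot_or_top (N := Subgroup.center G) inferInstance with h1 | h1
  · rw [h1, Subgroup.mem_bot] at hzc; exact hz hzc
  · refine c.nsol (Group.isSolvable_of_comm fun x y => ?_)
    have hy : y ∈ Subgroup.center G := by rw [h1]; trivial
    exact Subgroup.mem_center_iff.1 hy x

theorem normalizer_ne_top (c : Ctx A B) {X : Subgroup G} (h0 : X ≠ ⊥) (h1 : X ≤ A) :
    Subgroup.normalizer (X : Set G) ≠ ⊤ := fun h => by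
  rcases c.bot_or_top (Subgroup.normalizer_eq_top_iff.1 h) with e | e
  · exact h0 e
  · exact c.left_ne_top (top_le_iff.1 (e ▸ h1))

theorem disjoint (c : Ctx A B) : A ⊓ B = ⊥ := Subgroup.card_eq_one.1
  (Nat.eq_one_of_dvd_coprimes c.cop (Subgroup.card_dvd_of_le inf_le_left) (Subgroup.card_dvd_of_le inf_le_right))

theorem eq_one_of_mem (c : Ctx A B) {x : G} (hx : x ∈ A) (hy : x ∈ B) : x = 1 := by
  have : x ∈ A ⊓ B := ⟨hx, hy⟩
  rwa [c.disjoint, Subgroup.mem_bot] at this

/-- No proper overgroup of `A` contains a nontrivial element centralizing `B`. -/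
theorem eq_one_of_cover (c : Ctx A B) {H : Subgroup G} (hH : H ≠ ⊤) (hAH : A ≤ H) {u : G}
    (hu : u ∈ Subgroup.centralizer (B : Set G)) (huH : u ∈ H) : u = 1 := by
  have hle : Subgroup.normalClosure ({u} : Set G) ≤ H := by
    refine (Subgroup.closure_le _).2 fun x hx => ?_
    obtain ⟨a₀, rfl, hc⟩ := Group.mem_conjugatesOfSet_iff.1 hx
    obtain ⟨g, rfl⟩ := isConj_iff.1 hc
    obtain ⟨a, ha, b, hb, rfl⟩ := c.fac g
    have e : a * b * a₀ * (a * b)⁻¹ = a * a₀ * a⁻¹ := by
      rw [mul_assoc a b, Subgroup.mem_centralizer_iff.1 hu b hb]; group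
    rw [SetLike.mem_coe, e]
    exact H.mul_mem (H.mul_mem (hAH ha) huH) (H.inv_mem (hAH ha))
  rcases c.bot_or_top (N := Subgroup.normalClosure ({u} : Set G)) inferInstance with h | h
  · have := Subgroup.subset_normalClosure (Set.mem_singleton u)
    rwa [h, SetLike.mem_coe, Subgroup.mem_bot] at this
  · exact absurd (top_le_iff.1 (h ▸ hle)) hH

variable [Finite G]

theorem factor_normalizer (c : Ctx A B) {Y : Subgroup G} (hY : B ≤ Subgroup.normalizer (Y : Set G)) (s : ℕ) :
    FactorizedIn A B (Subgroup.normalizer (maxInv Y (pPart s A) : Set G)) := by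
  set X := maxInv Y (pPart s A)
  intro g hg
  obtain ⟨a, ha, b, hb, rfl⟩ := c.fac g
  have h1 : X.map (MulAut.conj b).toMonoidHom ≤ X := by
    refine le_maxInv ?_ ?_
    · rintro _ ⟨x, hx, rfl⟩
      have h := conj_mem_of_mem_normalizer' (le_normalizer_pPart s A ha)
        (maxInv_le _ _ (conj_mem_of_mem_normalizer hg hx))
      simpa [mul_assoc] using h
    · intro y hy
      refine Subgroup.mem_normalizer_fintype ?_
      rintro _ ⟨x, hx, rfl⟩
      refine ⟨b⁻¹ * y * b * x * (b⁻¹ * y * b)⁻¹,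
        conj_mem_of_mem_normalizer (le_normalizer_maxInv _ _ (conj_mem_of_mem_normalizer' (hY hb) hy)) hx, ?_⟩
      change b * (b⁻¹ * y * b * x * (b⁻¹ * y * b)⁻¹) * b⁻¹ = y * (b * x * b⁻¹) * y⁻¹
      group
  have hb' := map_conj_eq_of_le h1
  have ha' : a * b * b⁻¹ ∈ Subgroup.normalizer (X : Set G) := mul_mem hg (inv_mem hb')
  rw [mul_inv_cancel_right] at ha'
  exact ⟨a, ⟨ha, ha'⟩, b, ⟨hb, hb'⟩, rfl⟩

theorem comm_mem_fitting (c : Ctx A B) {K : Subgroup G} (hK : FactorizedIn A B K) (hKt : K ≠ ⊤) {u z : G}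
    (hu : u ∈ Subgroup.centralizer (B : Set G)) (hz : z ∈ Subgroup.centralizer (A : Set G))
    (huK : u ∈ K) (hzK : z ∈ K) :
    u * z * u⁻¹ * z⁻¹ ∈ (Cfsg.fittingSubgroup K).map K.subtype := by
  haveI := c.sol K hKt hK
  have hcK : u * z * u⁻¹ * z⁻¹ ∈ K := K.mul_mem (K.mul_mem (K.mul_mem huK hzK) (K.inv_mem huK)) (K.inv_mem hzK)
  have hle : (Cfsg.fittingSubgroup K).map K.subtype ≤ Subgroup.centralizer ({u * z * u⁻¹ * z⁻¹} : Set G) := by
    refine fittingMap_le fun t ht w hw => ?_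
    haveI := Fact.mk ht
    refine Subgroup.mem_centralizer_singleton_iff.2 (Commute.eq (Commute.symm ?_))
    by_cases htB : t ∣ Nat.card B
    · have hB := pPart_le_left c.hB hK.symm (not_dvd_of_coprime ht c.cop.symm htB)
      have hcu : ∀ w ∈ pPart t K, Commute u w := fun w hw => (Subgroup.mem_centralizer_iff.1 hu w (hB hw)).symm
      have h2 : Commute (z * u⁻¹ * z⁻¹) w := by
        have h := (hcu _ (conj_mem_of_mem_normalizer' (le_normalizer_pPart t K hzK) hw)).inv_left.eq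
        calc z * u⁻¹ * z⁻¹ * w = z * (u⁻¹ * (z⁻¹ * w * z)) * z⁻¹ := by group
          _ = z * (z⁻¹ * w * z * u⁻¹) * z⁻¹ := by rw [h]
          _ = w * (z * u⁻¹ * z⁻¹) := by group
      have h := (hcu w hw).mul_left h2
      rwa [show u * (z * u⁻¹ * z⁻¹) = u * z * u⁻¹ * z⁻¹ by group] at h
    · have hA := pPart_le_left c.hA hK htB
      have hcz : ∀ w ∈ pPart t K, Commute z w := fun w hw => (Subgroup.mem_centralizer_iff.1 hz w (hA hw)).symm
      have h2 : Commute (u * z * u⁻¹) w := by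
        have h := (hcz _ (conj_mem_of_mem_normalizer' (le_normalizer_pPart t K huK) hw)).eq
        calc u * z * u⁻¹ * w = u * (z * (u⁻¹ * w * u)) * u⁻¹ := by group
          _ = u * (u⁻¹ * w * u * z) * u⁻¹ := by rw [h]
          _ = w * (u * z * u⁻¹) := by group
      exact h2.mul_left (hcz w hw).inv_left
  refine ⟨⟨_, hcK⟩, CfsgLib.Hall.centralizer_fitting_le (Subgroup.mem_centralizer_iff.2 fun x hx => ?_), rfl⟩
  exact Subtype.ext (Subgroup.mem_centralizer_singleton_iff.1 (hle ⟨x, hx, rfl⟩))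

theorem exists_central_prime (c : Ctx A B) (p : ℕ) :
    ∃ q : ℕ, q.Prime ∧ q ∣ Nat.card A ∧ q ≠ p ∧
      ∃ z, z ∈ A ∧ z ∈ Subgroup.centralizer (A : Set G) ∧ z ∈ pPart q A ∧ orderOf z = q := by
  obtain ⟨q, hq, hqA, hqp⟩ := c.twoA p
  haveI := Fact.mk hq
  exact ⟨q, hq, hqA, hqp, exists_central c.hA hqA⟩

/-- Some conjugate by a power of `u` of a central element of `A` leaves `A`. -/
theorem no_orbit (c : Ctx A B) {u : G} (hu : u ∈ Subgroup.centralizer (B : Set G)) (hu1 : u ≠ 1)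
    (h : ∀ z ∈ A, z ∈ Subgroup.centralizer (A : Set G) → ∀ i : ℕ, u ^ i * z * (u ^ i)⁻¹ ∈ A) : False := by
  obtain ⟨s, hs, -, -, z', hz'A, hz'C, -, hz'o⟩ := c.exists_central_prime 1
  obtain ⟨r, hr, -, hrs, z, hzA, hzC, hzr, hzo⟩ := c.exists_central_prime s
  haveI := Fact.mk hs
  haveI := Fact.mk hr
  set Y := Subgroup.zpowers u with hYdef
  have hY : B ≤ Subgroup.normalizer (Y : Set G) := by
    intro b hb
    refine Subgroup.mem_normalizer_fintype fun y hy => ?_
    obtain ⟨k, rfl⟩ := Subgroup.mem_zpowers_iff.1 hy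
    have hk : Commute (u ^ k) b := (Commute.symm (Subgroup.mem_centralizer_iff.1 hu b hb : Commute b u)).zpow_left k
    rw [← hk.eq, mul_inv_cancel_right]
    exact hy
  set X := maxInv Y (pPart s A)
  have hX0 : X ≠ ⊥ := by
    have hle : Subgroup.closure (Set.range fun i : ℕ => u ^ i * z' * (u ^ i)⁻¹) ≤ X := by
      refine le_maxInv ((Subgroup.closure_le _).2 ?_) (Subgroup.zpowers_le.2 (map_conj_eq_of_le ?_))
      · rintro _ ⟨i, rfl⟩
        refine mem_pPart c.hA (h z' hz'A hz'C i) (isPGroup_zpowers_of_orderOf ?_)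
        rw [← hz'o]
        exact orderOf_injective (MulAut.conj (u ^ i)).toMonoidHom (MulEquiv.injective _) z'
      · rw [MonoidHom.map_closure, Subgroup.closure_le]
        rintro _ ⟨_, ⟨i, rfl⟩, rfl⟩
        refine Subgroup.subset_closure ⟨i + 1, ?_⟩
        simp only [MulEquiv.coe_toMonoidHom, MulAut.conj_apply, pow_succ']
        group
    intro h0
    have h1 : z' ∈ X := hle (Subgroup.subset_closure ⟨0, by simp⟩)
    rw [h0, Subgroup.mem_bot] at h1
    rw [h1, orderOf_one] at hz'o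
    exact hs.ne_one hz'o.symm
  set J := Subgroup.normalizer (X : Set G)
  have hXA : X ≤ A := (maxInv_le _ _).trans (pPart_le _ _)
  have hJt : J ≠ ⊤ := c.normalizer_ne_top hX0 hXA
  have hJ : FactorizedIn A B J := c.factor_normalizer hY s
  have huJ : u ∈ J := le_normalizer_maxInv Y (pPart s A) (Subgroup.mem_zpowers u)
  have hzJ : z ∈ J := Subgroup.mem_normalizer_fintype fun x hx => by
    rwa [← Subgroup.mem_centralizer_iff.1 hzC x (hXA hx), mul_inv_cancel_right]
  -- the `r`-core of `J` is trivial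
  have hO : pPart r J = ⊥ := by
    by_contra hne
    have hrB : ¬ r ∣ Nat.card B := not_dvd_of_coprime hr c.cop
      (hzo ▸ Subgroup.orderOf_dvd_natCard A hzA)
    have hOA := pPart_le_left c.hA hJ hrB
    refine hu1 (c.eq_one_of_cover (c.normalizer_ne_top hne hOA) ?_ hu (le_normalizer_pPart r J huJ))
    refine le_of_pPart_le c.hA fun q hq => ?_
    haveI := Fact.mk hq
    rcases eq_or_ne q s with rfl | hqs
    · exact pPart_le_normalizer_of_ne hrs.symm (le_pPart c.hA (isPGroup_pPart r J) hOA)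
    · exact (pPart_le_normalizer_of_ne hqs (maxInv_le _ _)).trans (le_normalizer_pPart r J)
  obtain ⟨⟨d, hdJ⟩, hdF, hd⟩ := c.comm_mem_fitting hJ hJt hu hzC huJ hzJ
  change d = _ at hd
  have h1 : u * z * u⁻¹ ∈ pPart r A := by
    have hz1 := h z hzA hzC 1
    rw [pow_one] at hz1
    refine mem_pPart c.hA hz1 (isPGroup_zpowers_of_orderOf ?_)
    rw [← hzo]
    exact orderOf_injective (MulAut.conj u).toMonoidHom (MulEquiv.injective _) z
  have hdr : d ∈ pPart r A := hd ▸ mul_mem h1 (inv_mem hzr)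
  have hdp : IsPGroup r (Subgroup.zpowers (⟨d, hdJ⟩ : J)) :=
    (((isPGroup_pPart r A).to_le (Subgroup.zpowers_le.2 hdr)).comap_of_injective J.subtype
      J.subtype_injective).to_le (Subgroup.zpowers_le.2 (Subgroup.mem_zpowers d))
  have hd1 : d ∈ pPart r J := ⟨⟨d, hdJ⟩, mem_pCore_of_mem_fitting hdF hdp, rfl⟩
  rw [hO, Subgroup.mem_bot, hd, mul_inv_eq_one, mul_inv_eq_iff_eq_mul] at hd1
  refine hu1 (c.eq_one_of_cover (c.centralizer_ne_top (z := z) ?_) (fun a ha => ?_) hu
    (Subgroup.mem_centralizer_singleton_iff.2 hd1))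
  · rintro rfl
    rw [orderOf_one] at hzo
    exact hr.ne_one hzo.symm
  · exact Subgroup.mem_centralizer_singleton_iff.2 (Subgroup.mem_centralizer_iff.1 hzC a ha)

/-- No nontrivial subgroup of `A` is normalized by `B_{t'}`. -/
theorem eq_bot_of_pCompl (c : Ctx A B) {t : ℕ} (ht : t.Prime) {X : Subgroup G} (hXA : X ≤ A)
    (hX : pCompl t B ≤ Subgroup.normalizer (X : Set G)) : X = ⊥ := by
  wlog htB : t ∣ Nat.card B generalizing t with H
  · obtain ⟨t', ht', ht'B, -⟩ := c.twoB 1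
    refine H ht' (le_trans ?_ hX) ht'B
    refine (pCompl_le t' B).trans (le_of_pPart_le c.hB fun q hq => ?_)
    haveI := Fact.mk hq
    rcases eq_or_ne q t with rfl | hqt
    · obtain ⟨k, hk⟩ := IsPGroup.iff_card.1 (isPGroup_pPart q B)
      have : pPart q B = ⊥ := Subgroup.card_eq_one.1 (by
        rw [exists_sylow_pPart c.hB, Nat.factorization_eq_zero_of_not_dvd htB, pow_zero])
      rw [this]; exact bot_le
    · exact pPart_le_pCompl hq hqt B
  haveI := Fact.mk ht
  by_contra hX0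
  obtain ⟨s, hs, hsX⟩ := Nat.exists_prime_and_dvd (n := Nat.card X) fun h => hX0 (Subgroup.card_eq_one.1 h)
  haveI := Fact.mk hs
  set Y := pCompl t B with hYdef
  set Xm := maxInv Y (pPart s A)
  have hXm0 : Xm ≠ ⊥ := by
    obtain ⟨x, hx⟩ := exists_prime_orderOf_dvd_card' s hsX
    have hxs : (x : G) ∈ pPart s A := mem_pPart c.hA (hXA x.2)
      (isPGroup_zpowers_of_orderOf (by rw [Subgroup.orderOf_coe, hx]))
    have hle : X ⊓ pPart s A ≤ Xm := by
      refine le_maxInv inf_le_right fun y hy => Subgroup.mem_normalizer_fintype ?_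
      rintro w ⟨hwX, hws⟩
      have h1 := conj_mem_of_mem_normalizer (hX hy) hwX
      refine ⟨h1, mem_pPart c.hA (hXA h1) ?_⟩
      have h2 := ((isPGroup_pPart s A).to_le (Subgroup.zpowers_le.2 hws)).map (MulAut.conj y).toMonoidHom
      rwa [MonoidHom.map_zpowers] at h2
    intro h0
    have h1 : (x : G) ∈ Xm := hle ⟨x.2, hxs⟩
    rw [h0, Subgroup.mem_bot] at h1
    rw [← Subgroup.orderOf_coe, h1, orderOf_one] at hx
    exact hs.ne_one hx.symm
  set K := Subgroup.normalizer (Xm : Set G)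
  have hXmA : Xm ≤ A := (maxInv_le _ _).trans (pPart_le _ _)
  have hKt : K ≠ ⊤ := c.normalizer_ne_top hXm0 hXmA
  have hK : FactorizedIn A B K := c.factor_normalizer (le_normalizer_pCompl t B) s
  have hYK : Y ≤ K := le_normalizer_maxInv Y (pPart s A)
  have hWK : ∀ z ∈ Subgroup.centralizer (A : Set G), z ∈ K := fun z hz =>
    Subgroup.mem_normalizer_fintype fun x hx => by
      rwa [← Subgroup.mem_centralizer_iff.1 hz x (hXmA hx), mul_inv_cancel_right]
  obtain ⟨t2, ht2, -, ht2t, u, huB, huC, hut2, huo⟩ := c.symm.exists_central_prime t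
  have huK : u ∈ K := hYK (pPart_le_pCompl ht2 ht2t B hut2)
  have hu1 : u ≠ 1 := by
    rintro rfl
    rw [orderOf_one] at huo
    exact ht2.ne_one huo.symm
  -- the other cores of `K` of primes of `B` are trivial
  have hO : ∀ q : ℕ, q.Prime → q ≠ t → q ∣ Nat.card B → pPart q K = ⊥ := by
    intro q hq hqt hqB
    haveI := Fact.mk hq
    by_contra hne
    have hOB := pPart_le_left c.hB hK.symm (not_dvd_of_coprime hq c.cop.symm hqB)
    obtain ⟨r, hr, -, -, z, hzA, hzC, -, hzo⟩ := c.exists_central_prime 1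
    refine hr.ne_one ?_
    rw [← hzo, orderOf_eq_one_iff]
    refine c.symm.eq_one_of_cover (c.symm.normalizer_ne_top hne hOB) ?_ hzC
      (le_normalizer_pPart q K (hWK z hzC))
    refine le_of_pPart_le c.hB fun q' hq' => ?_
    haveI := Fact.mk hq'
    rcases eq_or_ne q' t with rfl | hq't
    · exact pPart_le_normalizer_of_ne hqt.symm (le_pPart c.hB (isPGroup_pPart q K) hOB)
    · exact ((pPart_le_pCompl hq' hq't B).trans hYK).trans (le_normalizer_pPart q K)
  set M := pCompl t K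
  have hMA : M ≤ A := iSup_le fun r => by
    haveI := Fact.mk r.2.1
    by_cases hrB : r.1 ∣ Nat.card B
    · rw [hO r.1 r.2.1 r.2.2 hrB]; exact bot_le
    · exact pPart_le_left c.hA hK hrB
  have hTB : pPart t K ≤ B := pPart_le_left c.hB hK.symm (not_dvd_of_coprime ht c.cop.symm htB)
  refine c.no_orbit huC hu1 fun z hzA hzC => ?_
  have hMK := le_normalizer_pCompl t K
  have hF : u * z * u⁻¹ * z⁻¹ ∈ M ⊔ pPart t K := by
    refine fittingMap_le (fun p hp => ?_) (c.comm_mem_fitting hK hKt huC hzC huK (hWK z hzC))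
    rcases eq_or_ne p t with rfl | hpt
    · exact le_sup_right
    · exact le_sup_of_le_left (pPart_le_pCompl hp hpt K)
  have hperm : CfsgLib.Hall.Struct.Permutes M (pPart t K) := fun x hx y hy =>
    ⟨y * x * y⁻¹, conj_mem_of_mem_normalizer (hMK (pPart_le t K hy)) hx, y, hy, by group⟩
  obtain ⟨m, hm, y, hy, he⟩ := hperm.exists_eq_mul hF
  have huy : Commute u y := (Subgroup.mem_centralizer_iff.1 huC y (hTB hy)).symm
  have hind : ∀ i : ℕ, ∃ mi ∈ M, u ^ i * z * (u ^ i)⁻¹ = mi * y ^ i * z := by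
    intro i
    induction i with
    | zero => exact ⟨1, M.one_mem, by simp⟩
    | succ i IH =>
      obtain ⟨mi, hmi, hi⟩ := IH
      have hyK : y ^ i ∈ K := K.pow_mem (pPart_le t K hy) i
      refine ⟨u * mi * u⁻¹ * (y ^ i * m * (y ^ i)⁻¹), M.mul_mem (conj_mem_of_mem_normalizer (hMK huK) hmi)
        (conj_mem_of_mem_normalizer (hMK hyK) hm), ?_⟩
      have hz' : u * z * u⁻¹ = m * y * z := by rw [← he]; group
      calc u ^ (i + 1) * z * (u ^ (i + 1))⁻¹ = u * (u ^ i * z * (u ^ i)⁻¹) * u⁻¹ := by rw [pow_succ']; group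
        _ = u * mi * u⁻¹ * (u * y ^ i * u⁻¹) * (u * z * u⁻¹) := by rw [hi]; group
        _ = u * mi * u⁻¹ * y ^ i * (m * y * z) := by
          rw [hz', show u * y ^ i * u⁻¹ = y ^ i from by rw [(huy.pow_right i).eq, mul_inv_cancel_right]]
        _ = _ := by rw [pow_succ]; group
  have hy1 : y = 1 := by
    obtain ⟨mn, hmn, hn⟩ := hind (orderOf u)
    rw [pow_orderOf_eq_one] at hn
    have h1 : y ^ orderOf u = mn⁻¹ := by
      simp only [one_mul, inv_one, mul_one] at hn
      calc y ^ orderOf u = mn⁻¹ * (mn * y ^ orderOf u * z) * z⁻¹ := by group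
        _ = mn⁻¹ := by rw [← hn]; group
    have h2 : y ^ orderOf u = 1 := c.eq_one_of_mem (h1 ▸ A.inv_mem (hMA hmn)) (B.pow_mem (hTB hy) _)
    by_contra hy0
    rw [huo] at h2
    have := (dvd_orderOf_of_ne_one (isPGroup_pPart t K) hy hy0).trans (orderOf_dvd_of_pow_eq_one h2)
    exact ht2t ((Nat.prime_dvd_prime_iff_eq ht ht2).1 this).symm
  intro i
  obtain ⟨mi, hmi, hi⟩ := hind i
  rw [hi, hy1, one_pow, mul_one]
  exact A.mul_mem (hMA hmi) hzA

/-- The normalizer of a `t`-subgroup of `B` which is factorized lies in a proper overgroup of `B`. -/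
theorem exists_overgroup (c : Ctx A B) {t : ℕ} [ht : Fact t.Prime] {Y : Subgroup G} (hYB : Y ≤ B)
    (hYt : IsPGroup t Y) (hY0 : Y ≠ ⊥) (hK : FactorizedIn A B (Subgroup.normalizer (Y : Set G))) :
    ∃ H : Subgroup G, H ≠ ⊤ ∧ B ≤ H ∧ Subgroup.normalizer (Y : Set G) ≤ H := by
  set K := Subgroup.normalizer (Y : Set G)
  have hKt : K ≠ ⊤ := c.symm.normalizer_ne_top hY0 hYB
  have hYp : Y ≤ pPart t B := le_pPart c.hB hYt hYB
  have hBK : ∀ r : ℕ, r.Prime → r ≠ t → pPart r B ≤ K := fun r hr hrt => by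
    haveI := Fact.mk hr
    exact pPart_le_normalizer_of_ne hrt hYp
  by_cases hex : ∃ q : ℕ, q.Prime ∧ q ≠ t ∧ q ∣ Nat.card B ∧ pPart q K ≠ ⊥
  · obtain ⟨q, hq, hqt, hqB, hne⟩ := hex
    haveI := Fact.mk hq
    have hOB := pPart_le_left c.hB hK.symm (not_dvd_of_coprime hq c.cop.symm hqB)
    refine ⟨_, c.symm.normalizer_ne_top hne hOB, ?_, le_normalizer_pPart q K⟩
    refine le_of_pPart_le c.hB fun r hr => ?_
    haveI := Fact.mk hr
    rcases eq_or_ne r t with rfl | hrt
    · exact pPart_le_normalizer_of_ne hqt.symm (le_pPart c.hB (isPGroup_pPart q K) hOB)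
    · exact (hBK r hr hrt).trans (le_normalizer_pPart q K)
  push Not at hex
  exfalso
  obtain ⟨t2, ht2, ht2B, ht2t, u, huB, huC, hut2, huo⟩ := c.symm.exists_central_prime t
  haveI := Fact.mk ht2
  have huK : u ∈ K := hBK t2 ht2 ht2t hut2
  haveI := c.sol K hKt hK
  have hle : (Cfsg.fittingSubgroup K).map K.subtype ≤ Subgroup.centralizer ({u} : Set G) := by
    refine fittingMap_le fun q hq => ?_
    haveI := Fact.mk hq
    by_cases hqB : q ∣ Nat.card B
    · exact fun x hx => Subgroup.mem_centralizer_singleton_iff.2 (Subgroup.mem_centralizer_iff.1 huC x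
        (pPart_le_left c.hB hK.symm (not_dvd_of_coprime hq c.cop.symm hqB) hx))
    · have h1 : pPart q K = ⊥ := c.eq_bot_of_pCompl ht.out (pPart_le_left c.hA hK hqB)
        ((show pCompl t B ≤ K from iSup_le fun r => hBK r.1 r.2.1 r.2.2).trans (le_normalizer_pPart q K))
      rw [h1]; exact bot_le
  have huF : (⟨u, huK⟩ : K) ∈ Cfsg.fittingSubgroup K :=
    CfsgLib.Hall.centralizer_fitting_le (Subgroup.mem_centralizer_iff.2 fun x hx =>
      Subtype.ext (Subgroup.mem_centralizer_singleton_iff.1 (hle ⟨x, hx, rfl⟩)))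
  have hup : IsPGroup t2 (Subgroup.zpowers (⟨u, huK⟩ : K)) :=
    ((isPGroup_zpowers_of_orderOf huo).comap_of_injective K.subtype K.subtype_injective).to_le
      (Subgroup.zpowers_le.2 (Subgroup.mem_zpowers u))
  have h1 : u ∈ pPart t2 K := ⟨⟨u, huK⟩, mem_pCore_of_mem_fitting huF hup, rfl⟩
  rw [hex t2 ht2 ht2t ht2B, Subgroup.mem_bot] at h1
  rw [h1, orderOf_one] at huo
  exact ht2.ne_one huo.symm

/-- A nontrivial central element of `A` normalizes no nontrivial subgroup of `B`. -/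
theorem eq_bot_of_normalized (c : Ctx A B) {z : G} (hzC : z ∈ Subgroup.centralizer (A : Set G)) (hz1 : z ≠ 1)
    {R : Subgroup G} (hRB : R ≤ B) (hR : z ∈ Subgroup.normalizer (R : Set G)) : R = ⊥ := by
  by_contra hR0
  obtain ⟨t, ht, htR⟩ := Nat.exists_prime_and_dvd (n := Nat.card R) fun h => hR0 (Subgroup.card_eq_one.1 h)
  haveI := Fact.mk ht
  set Z := Subgroup.zpowers z with hZdef
  have hZ : A ≤ Subgroup.normalizer (Z : Set G) := fun a ha => Subgroup.mem_normalizer_fintype fun y hy => by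
    obtain ⟨k, rfl⟩ := Subgroup.mem_zpowers_iff.1 hy
    have hk : Commute (z ^ k) a := (Commute.symm (Subgroup.mem_centralizer_iff.1 hzC a ha : Commute a z)).zpow_left k
    rw [← hk.eq, mul_inv_cancel_right]
    exact hy
  set Y := maxInv Z (pPart t B)
  have hY0 : Y ≠ ⊥ := by
    obtain ⟨x, hx⟩ := exists_prime_orderOf_dvd_card' t htR
    have hxt : (x : G) ∈ pPart t B := mem_pPart c.hB (hRB x.2)
      (isPGroup_zpowers_of_orderOf (by rw [Subgroup.orderOf_coe, hx]))
    have hle : R ⊓ pPart t B ≤ Y := by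
      refine le_maxInv inf_le_right (Subgroup.zpowers_le.2 (Subgroup.mem_normalizer_fintype ?_))
      rintro w ⟨hwR, hwt⟩
      have h1 := conj_mem_of_mem_normalizer hR hwR
      refine ⟨h1, mem_pPart c.hB (hRB h1) ?_⟩
      have h2 := ((isPGroup_pPart t B).to_le (Subgroup.zpowers_le.2 hwt)).map (MulAut.conj z).toMonoidHom
      rwa [MonoidHom.map_zpowers] at h2
    intro h0
    have h1 : (x : G) ∈ Y := hle ⟨x.2, hxt⟩
    rw [h0, Subgroup.mem_bot] at h1
    rw [← Subgroup.orderOf_coe, h1, orderOf_one] at hx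
    exact ht.ne_one hx.symm
  obtain ⟨H, hH, hBH, hKH⟩ := c.exists_overgroup ((maxInv_le _ _).trans (pPart_le _ _))
    ((isPGroup_pPart t B).to_le (maxInv_le _ _)) hY0 (c.symm.factor_normalizer hZ t).symm
  exact hz1 (c.symm.eq_one_of_cover hH hBH hzC (hKH (le_normalizer_maxInv Z (pPart t B) (Subgroup.mem_zpowers z))))

end Ctx

end CfsgLib.KegelWielandt
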