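import Cfsg.Agent.KegelWielandt.Simple

/-!
The theorem of Kegel and Wielandt: a product of two nilpotent groups is solvable.
-/

set_option autoImplicit false
set_option linter.style.haveILetI false

namespace CfsgLib.KegelWielandt

open scoped Pointwise

universe u

variable {G : Type u} [Group G]

theorem Factor.map {A B : Subgroup G} (h : Factor A B) {H : Type*} [Group H] {f : G →* H}
    (hf : Function.Surjective f) : Factor (A.map f) (B.map f) := fun x => by
  obtain ⟨g, rfl⟩ := hf x
  obtain ⟨a, ha, b, hb, rfl⟩ := h g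
  exact ⟨f a, ⟨a, ha, rfl⟩, f b, ⟨b, hb, rfl⟩, map_mul f a b⟩

theorem isNilpotent_map {A : Subgroup G} (hA : Group.IsNilpotent A) {H : Type*} [Group H] (f : G →* H) :
    Group.IsNilpotent (A.map f) :=
  Group.nilpotent_of_surjective (f.subgroupMap A) (f.subgroupMap_surjective A)

theorem factorizedIn_inf {A B : Subgroup G} (h : Factor A B) {N : Subgroup G} [N.Normal] :
    FactorizedIn A B ((A ⊔ N) ⊓ (B ⊔ N)) := by
  intro g hg
  obtain ⟨a, ha, b, hb, rfl⟩ := h g
  have h1 : a ∈ B ⊔ N := by
    have := (B ⊔ N).mul_mem hg.2 ((B ⊔ N).inv_mem (Subgroup.mem_sup_left hb : b ∈ B ⊔ N))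
    simpa using this
  have h2 : b ∈ A ⊔ N := by
    have := (A ⊔ N).mul_mem ((A ⊔ N).inv_mem (Subgroup.mem_sup_left ha : a ∈ A ⊔ N)) hg.1
    simpa [← mul_assoc] using this
  exact ⟨a, ⟨ha, Subgroup.mem_sup_left ha, h1⟩, b, ⟨hb, h2, Subgroup.mem_sup_left hb⟩, rfl⟩

/-- A product of two nilpotent subgroups is solvable. -/
theorem isSolvable_of_factor : ∀ (k : ℕ) {G : Type u} [Group G] [Finite G], Nat.card G = k →
    ∀ A B : Subgroup G, Group.IsNilpotent A → Group.IsNilpotent B → Factor A B → Group.IsSolvable G := by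
  intro k
  induction k using Nat.strong_induction_on with
  | _ k IH =>
  intro G _ _ hk A B hA hB hAB
  by_contra hns
  have hsub : ∀ H : Subgroup G, H ≠ ⊤ → FactorizedIn A B H → Group.IsSolvable H := fun H hH hf =>
    IH _ (hk ▸ CfsgLib.Components.card_lt_of_ne_top hH) rfl _ _ (isNilpotent_subgroupOf hA H)
      (isNilpotent_subgroupOf hB H) hf.factor
  haveI hnt : Nontrivial G := by
    by_contra h
    rw [not_nontrivial_iff_subsingleton] at h
    exact hns (Group.isSolvable_of_comm fun x y => Subsingleton.elim _ _)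
  -- proper normal subgroups are covered by both factors
  have hquot : ∀ (N : Subgroup G) [N.Normal], N ≠ ⊥ → Group.IsSolvable (G ⧸ N) := fun N _ h0 => by
    refine IH _ ?_ rfl (A.map (QuotientGroup.mk' N)) (B.map (QuotientGroup.mk' N))
      (isNilpotent_map hA _) (isNilpotent_map hB _) (hAB.map (QuotientGroup.mk'_surjective N))
    rw [← hk, N.card_eq_card_quotient_mul_card_subgroup]
    exact lt_mul_of_one_lt_right Nat.card_pos ((Subgroup.one_lt_card_iff_ne_bot N).2 h0)
  have hnsN : ∀ N : Subgroup G, N.Normal → N ≠ ⊥ → ¬ Group.IsSolvable N := fun N hN h0 hs => by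
    haveI := hN
    haveI := hquot N h0
    haveI := hs
    exact hns (Group.isSolvable_of_ker_le_range N.subtype (QuotientGroup.mk' N) (by simp))
  have htop : ∀ N : Subgroup G, N.Normal → N ≠ ⊥ → N ≠ ⊤ → A ⊔ N = ⊤ ∧ B ⊔ N = ⊤ := fun N hN h0 h1 => by
    haveI := hN
    by_contra hcon
    have hXt : (A ⊔ N) ⊓ (B ⊔ N) ≠ ⊤ := fun h => hcon (inf_eq_top_iff.1 h)
    haveI := hsub _ hXt (factorizedIn_inf hAB)
    exact hnsN N hN h0 (Group.isSolvable_of_isSolvable_injective
      (f := Subgroup.inclusion (le_inf le_sup_right le_sup_right : N ≤ (A ⊔ N) ⊓ (B ⊔ N)))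
      (Subgroup.inclusion_injective _))
  -- the orders of the factors are coprime
  have hcop : (Nat.card A).Coprime (Nat.card B) := by
    refine Nat.coprime_of_dvd fun p hp hpA hpB => ?_
    haveI := Fact.mk hp
    obtain ⟨B', hBB', hB'p, hC⟩ := kegel_pgroup (pPart p A) _ (pPart p B) rfl (pPart_kegel_hyp hA hB hAB)
    set C := Subgroup.normalClosure (pPart p A : Set G)
    have hpG : ¬ IsPGroup p G := fun h => hns (by haveI := h.isNilpotent; infer_instance)
    have hC0 : C ≠ ⊥ := fun h => pPart_ne_bot hA hpA (eq_bot_iff.2 (h ▸ Subgroup.subset_normalClosure))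
    have hB'0 : B' ≠ ⊥ := fun h => pPart_ne_bot hB hpB (eq_bot_iff.2 (h ▸ hBB'))
    have hCt : C ≠ ⊤ := fun h => by
      have hn : B'.Normal := Subgroup.normalizer_eq_top_iff.1 (top_le_iff.1 (h ▸ hC))
      haveI := hB'p.isNilpotent
      exact hnsN B' hn hB'0 inferInstance
    -- `C` and `B'` commute
    have hcomm : B' ≤ Subgroup.centralizer (C : Set G) := by
      have h0 : Cfsg.pCore p C = ⊥ := by
        by_contra hne
        have hchar : (Cfsg.pCore p C).Characteristic := CfsgLib.Components.pCore_characteristic p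
        have hn : ((Cfsg.pCore p C).map C.subtype).Normal :=
          CfsgLib.Components.map_subtype_normal inferInstance _
        refine hnsN _ hn ?_ ?_
        · rwa [ne_eq, Subgroup.map_eq_bot_iff_of_injective _ C.subtype_injective]
        · haveI := ((CfsgLib.PCore.isPGroup_pCore p C).map C.subtype).isNilpotent
          infer_instance
      intro b hb
      refine Subgroup.mem_centralizer_iff.2 fun x hx => ?_
      have h1 : x * b * x⁻¹ * b⁻¹ ∈ (Cfsg.pCore p C).map C.subtype := by
        have hCn : C.Normal := inferInstance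
        have hxC : x * b * x⁻¹ * b⁻¹ ∈ C := by
          have := C.mul_mem hx (hCn.conj_mem _ (C.inv_mem hx) b)
          simpa [mul_assoc] using this
        have hxB : x * b * x⁻¹ * b⁻¹ ∈ B' :=
          B'.mul_mem (conj_mem_of_mem_normalizer (hC hx) hb) (B'.inv_mem hb)
        have hnorm : (B'.subgroupOf C).Normal :=
          ⟨fun y hy c => show (c : G) * (y : G) * (c : G)⁻¹ ∈ B' from conj_mem_of_mem_normalizer (hC c.2) hy⟩
        exact ⟨⟨_, hxC⟩, CfsgLib.PCore.le_pCore hnorm
          (hB'p.comap_of_injective C.subtype C.subtype_injective) hxB, rfl⟩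
      rw [h0, Subgroup.map_bot, Subgroup.mem_bot, mul_inv_eq_one, mul_inv_eq_iff_eq_mul] at h1
      exact h1
    set D := Subgroup.centralizer (C : Set G)
    haveI : D.Normal := Subgroup.normal_centralizer
    have hD0 : D ≠ ⊥ := fun h => hB'0 (eq_bot_iff.2 (h ▸ hcomm))
    have hCD : C ⊓ D = ⊥ := by
      by_contra h
      refine hnsN (C ⊓ D) inferInstance h (Group.isSolvable_of_comm fun x y => Subtype.ext ?_)
      exact Subgroup.mem_centralizer_iff.1 y.2.2 x x.2.1
    haveI := hquot C hC0
    haveI := hquot D hD0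
    refine hns (Group.isSolvable_of_isSolvable_injective
      (f := (QuotientGroup.mk' C).prod (QuotientGroup.mk' D)) ?_)
    rw [← MonoidHom.ker_eq_bot_iff, MonoidHom.ker_prod, QuotientGroup.ker_mk', QuotientGroup.ker_mk', hCD]
  have hAt : A ≠ ⊤ := fun h => hns <| by
    haveI := hA
    haveI : Group.IsNilpotent G := Group.nilpotent_of_surjective A.subtype fun g => ⟨⟨g, h ▸ trivial⟩, rfl⟩
    infer_instance
  -- `G` is simple
  haveI hsimple : IsSimpleGroup G := ⟨fun N hN => by
    by_contra h
    push Not at h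
    obtain ⟨h1, h2⟩ := htop N hN h.1 h.2
    haveI := hN
    have hd : ∀ X : Subgroup G, X ⊔ N = ⊤ → N.index ∣ Nat.card X := fun X hX => by
      have hsurj : Function.Surjective ((QuotientGroup.mk' N).comp X.subtype) := by
        intro q
        obtain ⟨g, rfl⟩ := QuotientGroup.mk'_surjective N q
        obtain ⟨x, hx, n, hn, rfl⟩ := Subgroup.mem_sup_of_normal_left.1 (show g ∈ N ⊔ X by rw [sup_comm, hX]; trivial)
        exact ⟨⟨n, hn⟩, (QuotientGroup.eq.2 (by
          have := hN.conj_mem x hx n⁻¹
          simpa [mul_assoc] using this))⟩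
      exact Subgroup.card_dvd_of_surjective _ hsurj
    exact h.2 (Subgroup.index_eq_one.1 (Nat.eq_one_of_dvd_coprimes hcop (hd A h1) (hd B h2)))⟩
  have htwo : ∀ X Y : Subgroup G, Group.IsNilpotent X → Y ≠ ⊤ → Group.IsNilpotent Y → Factor X Y → (Nat.card X).Coprime (Nat.card Y) →
      ∀ p : ℕ, ∃ q : ℕ, q.Prime ∧ q ∣ Nat.card X ∧ q ≠ p := by
    intro X Y hX hYt hY hXY hco p
    by_contra hcon
    push Not at hcon
    have hY1 : Nat.card Y ≠ 1 := fun h => hns (by
      have e : Y = ⊥ := Subgroup.card_eq_one.1 h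
      have hXt : X = ⊤ := eq_top_iff.2 fun g _ => by
        obtain ⟨x, hx, y, hy, rfl⟩ := hXY g
        rw [e, Subgroup.mem_bot] at hy
        rwa [hy, mul_one]
      haveI := hX
      haveI : Group.IsNilpotent G := Group.nilpotent_of_surjective X.subtype fun g => ⟨⟨g, hXt ▸ trivial⟩, rfl⟩
      infer_instance)
    obtain ⟨r, hr, hrY⟩ := Nat.exists_prime_and_dvd hY1
    haveI := Fact.mk hr
    obtain ⟨z, hzY, hzC, -, hzo⟩ := exists_central hY hrY
    have hcard := hXY.card_mul
    have hle : Y ≤ Subgroup.centralizer ({z} : Set G) := fun y hy =>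
      Subgroup.mem_centralizer_singleton_iff.2 (Subgroup.mem_centralizer_iff.1 hzC y hy)
    have hidx : (Subgroup.centralizer ({z} : Set G)).index ∣ Nat.card X := by
      refine (Subgroup.index_dvd_of_le hle).trans ?_
      have e : X ⊓ Y = ⊥ := Subgroup.card_eq_one.1 (Nat.eq_one_of_dvd_coprimes hco
        (Subgroup.card_dvd_of_le inf_le_left) (Subgroup.card_dvd_of_le inf_le_right))
      rw [e, Subgroup.card_bot, mul_one, ← Y.card_mul_index, mul_comm (Nat.card X)] at hcard
      rw [Nat.eq_of_mul_eq_mul_left Nat.card_pos hcard]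
    have hi1 : (Subgroup.centralizer ({z} : Set G)).index ≠ 1 := fun h => by
      rw [Subgroup.index_eq_one] at h
      have hzc : z ∈ Subgroup.center G := Subgroup.mem_center_iff.2 fun g =>
        Subgroup.mem_centralizer_singleton_iff.1 (show g ∈ Subgroup.centralizer ({z} : Set G) by rw [h]; trivial)
      rcases (inferInstance : (Subgroup.center G).Normal).eq_bot_or_eq_top with h1 | h1
      · rw [h1, Subgroup.mem_bot] at hzc
        rw [hzc, orderOf_one] at hzo
        exact hr.ne_one hzo.symm
      · refine hns (Group.isSolvable_of_comm fun x y => ?_)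
        exact Subgroup.mem_center_iff.1 (show y ∈ Subgroup.center G by rw [h1]; trivial) x
    obtain ⟨q, hq, hqi⟩ := Nat.exists_prime_and_dvd hi1
    obtain rfl : q = p := hcon q hq (hqi.trans hidx)
    obtain ⟨j, hj⟩ : ∃ j, (Subgroup.centralizer ({z} : Set G)).index = q ^ j := by
      refine ⟨_, Nat.eq_prime_pow_of_unique_prime_dvd Subgroup.index_ne_zero_of_finite fun {d} hd hdi => ?_⟩
      exact hcon d hd (hdi.trans hidx)
    refine CfsgLib.CharBasics.not_isSimpleGroup_of_class_prime_pow hq z hj (Nat.pos_of_ne_zero fun h0 => hi1 ?_) hsimple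
    rw [hj, h0, pow_zero]
  have hBt : B ≠ ⊤ := fun h => hns <| by
    haveI := hB
    haveI : Group.IsNilpotent G := Group.nilpotent_of_surjective B.subtype fun g => ⟨⟨g, h ▸ trivial⟩, rfl⟩
    infer_instance
  exact Ctx.false ⟨hsimple, hns, hA, hB, hcop, hAB, hsub, htwo A B hA hBt hB hAB hcop,
    htwo B A hB hAt hA hAB.symm hcop.symm⟩

theorem kegel_wielandt {G : Type u} [Group G] [Finite G] {A B : Subgroup G} (hA : Group.IsNilpotent A)
    (hB : Group.IsNilpotent B) (hAB : Factor A B) : Group.IsSolvable G :=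
  isSolvable_of_factor _ rfl A B hA hB hAB

end CfsgLib.KegelWielandt
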