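import Cfsg.Agent.KegelWielandt.Product
import Cfsg.Agent.ZJ.Complement
import Cfsg.Agent.Hall.Fitting

/-!
Parts of nilpotent subgroups, and cores of factorized subgroups.
-/

set_option autoImplicit false
set_option linter.style.haveILetI false

namespace CfsgLib.KegelWielandt

open scoped Pointwise

variable {G : Type*} [Group G]

theorem isNilpotent_of_le {A X : Subgroup G} (hA : Group.IsNilpotent A) (h : X ≤ A) : Group.IsNilpotent X :=
  Group.nilpotent_of_surjective (Subgroup.subgroupOfEquivOfLe h).toMonoidHom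
    (Subgroup.subgroupOfEquivOfLe h).surjective

theorem isNilpotent_subgroupOf {A : Subgroup G} (hA : Group.IsNilpotent A) (K : Subgroup G) :
    Group.IsNilpotent (A.subgroupOf K) := by
  haveI := isNilpotent_of_le hA (inf_le_left : A ⊓ K ≤ A)
  have e : (A.subgroupOf K).map K.subtype = A ⊓ K := Subgroup.subgroupOf_map_subtype A K
  let f := ((A.subgroupOf K).equivMapOfInjective K.subtype K.subtype_injective).trans (MulEquiv.subgroupCongr e)
  exact Group.nilpotent_of_surjective f.symm.toMonoidHom f.symm.surjective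

theorem not_dvd_of_coprime {a b p : ℕ} (hp : p.Prime) (h : a.Coprime b) (ha : p ∣ a) : ¬ p ∣ b := fun hb =>
  hp.ne_one (Nat.eq_one_of_dvd_coprimes h ha hb)

theorem isPGroup_zpowers_of_orderOf {p : ℕ} [Fact p.Prime] {x : G} (h : orderOf x = p) :
    IsPGroup p (Subgroup.zpowers x) :=
  IsPGroup.of_card (n := 1) (by rw [Nat.card_zpowers, h, pow_one])

theorem dvd_orderOf_of_ne_one [Finite G] {p : ℕ} [hp : Fact p.Prime] {P : Subgroup G} (hP : IsPGroup p P) {x : G}
    (hx : x ∈ P) (hx1 : x ≠ 1) : p ∣ orderOf x := by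
  obtain ⟨k, hk⟩ := hP ⟨x, hx⟩
  have h : orderOf x ∣ p ^ k := orderOf_dvd_of_pow_eq_one (congrArg Subtype.val hk :)
  obtain ⟨i, -, hi⟩ := (Nat.dvd_prime_pow hp.out).1 h
  rw [hi]
  refine dvd_pow_self p fun h0 => hx1 ?_
  rwa [h0, pow_zero, orderOf_eq_one_iff] at hi

theorem mem_pPart [Finite G] {p : ℕ} [Fact p.Prime] {A : Subgroup G} (hA : Group.IsNilpotent A) {x : G}
    (hx : x ∈ A) (hxp : IsPGroup p (Subgroup.zpowers x)) : x ∈ pPart p A :=
  le_pPart hA hxp (Subgroup.zpowers_le.2 hx) (Subgroup.mem_zpowers x)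

theorem le_of_pPart_le [Finite G] {A X : Subgroup G} (hA : Group.IsNilpotent A)
    (h : ∀ p : ℕ, p.Prime → pPart p A ≤ X) : A ≤ X :=
  le_of_forall_isPGroup fun p hp P hPA hP => by
    haveI := Fact.mk hp
    exact (le_pPart hA hP hPA).trans (h p hp)

theorem pPart_commute [Finite G] {p q : ℕ} [Fact p.Prime] [Fact q.Prime] (hpq : p ≠ q) {A : Subgroup G} {x y : G}
    (hx : x ∈ pPart p A) (hy : y ∈ pPart q A) : Commute x y := by
  obtain ⟨x', hx', rfl⟩ := hx
  obtain ⟨y', hy', rfl⟩ := hy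
  exact (Subgroup.commute_of_normal_of_disjoint _ _ (Cfsg.pCore_normal p A) (Cfsg.pCore_normal q A)
    (IsPGroup.disjoint_of_ne p q hpq _ _ (CfsgLib.PCore.isPGroup_pCore p A)
      (CfsgLib.PCore.isPGroup_pCore q A)) x' y' hx' hy').map A.subtype

theorem pPart_le_normalizer_of_ne [Finite G] {p q : ℕ} [Fact p.Prime] [Fact q.Prime] (hpq : p ≠ q)
    {A X : Subgroup G} (hX : X ≤ pPart q A) : pPart p A ≤ Subgroup.normalizer (X : Set G) := by
  intro x hx
  refine Subgroup.mem_normalizer_fintype fun y hy => ?_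
  rwa [(pPart_commute hpq hx (hX hy)).eq, mul_inv_cancel_right]

/-- The Fitting subgroup is generated by the cores of prime power order. -/
theorem fittingMap_le [Finite G] {K X : Subgroup G} (h : ∀ p : ℕ, p.Prime → pPart p K ≤ X) :
    (Cfsg.fittingSubgroup K).map K.subtype ≤ X := by
  refine le_of_forall_isPGroup fun p hp P hPF hP x hx => ?_
  haveI := Fact.mk hp
  obtain ⟨x', hx', rfl⟩ := hPF hx
  refine h p hp ⟨x', mem_pCore_of_mem_fitting hx' ?_, rfl⟩
  have h1 : IsPGroup p (Subgroup.zpowers (x' : G)) := hP.to_le (Subgroup.zpowers_le.2 hx)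
  have h2 := h1.comap_of_injective K.subtype K.subtype_injective
  exact h2.to_le (Subgroup.zpowers_le.2 (Subgroup.mem_zpowers (x' : G)))

theorem exists_central [Finite G] {A : Subgroup G} (hA : Group.IsNilpotent A) {p : ℕ} [hp : Fact p.Prime]
    (h : p ∣ Nat.card A) :
    ∃ z, z ∈ A ∧ z ∈ Subgroup.centralizer (A : Set G) ∧ z ∈ pPart p A ∧ orderOf z = p := by
  have hS := isPGroup_pPart p A
  have h0 := CfsgLib.ZJ.center_inf_ne_bot hS (pPart_ne_bot hA h)
  set Z := pPart p A ⊓ Subgroup.centralizer (pPart p A : Set G)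
  obtain ⟨k, hk⟩ := IsPGroup.iff_card.1 (hS.to_le (inf_le_left : Z ≤ _))
  have hk0 : k ≠ 0 := fun e => h0 (Subgroup.card_eq_one.1 (by rw [hk, e, pow_zero]))
  obtain ⟨z, hz⟩ := exists_prime_orderOf_dvd_card' p (show p ∣ Nat.card Z by rw [hk]; exact dvd_pow_self p hk0)
  have hzp : (z : G) ∈ pPart p A := z.2.1
  refine ⟨z, pPart_le p A hzp, ?_, hzp, by rwa [Subgroup.orderOf_coe]⟩
  have hle : A ≤ Subgroup.centralizer ({(z : G)} : Set G) := le_of_pPart_le hA fun q hq x hx => by
    haveI := Fact.mk hq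
    refine Subgroup.mem_centralizer_singleton_iff.2 ?_
    rcases eq_or_ne q p with rfl | hqp
    · exact Subgroup.mem_centralizer_iff.1 z.2.2 x hx
    · exact (pPart_commute hqp hx hzp).eq
  exact fun x hx => Subgroup.mem_centralizer_singleton_iff.1 (hle hx)

/-- In a product of nilpotent subgroups `O_p` lies in the factor of order divisible by `p`. -/
theorem pCore_le_left [Finite G] {p : ℕ} [hp : Fact p.Prime] {A B : Subgroup G} (hA : Group.IsNilpotent A)
    (hAB : Factor A B) (hpB : ¬ p ∣ Nat.card B) : Cfsg.pCore p G ≤ A := by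
  have h1 := congrArg (fun n => n.factorization p) hAB.card_mul
  have hB0 : (Nat.card B).factorization p = 0 := Nat.factorization_eq_zero_of_not_dvd hpB
  have hI0 : (Nat.card (A ⊓ B : Subgroup G)).factorization p = 0 :=
    Nat.factorization_eq_zero_of_not_dvd fun h => hpB (h.trans (Subgroup.card_dvd_of_le inf_le_right))
  simp only [Nat.factorization_mul Nat.card_pos.ne' Nat.card_pos.ne', Finsupp.add_apply, hB0, hI0, add_zero] at h1
  have hc : Nat.card (pPart p A) = p ^ (Nat.card G).factorization p := by rw [exists_sylow_pPart hA, h1]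
  exact (CfsgLib.PCore.pCore_le_sylow (Sylow.ofCard (pPart p A) hc)).trans (pPart_le p A)

theorem FactorizedIn.factor {A B K : Subgroup G} (h : FactorizedIn A B K) :
    Factor (A.subgroupOf K) (B.subgroupOf K) := fun g => by
  obtain ⟨a, ha, b, hb, e⟩ := h g g.2
  exact ⟨⟨a, ha.2⟩, ha.1, ⟨b, hb.2⟩, hb.1, Subtype.ext e⟩

theorem pPart_le_left [Finite G] {p : ℕ} [hp : Fact p.Prime] {A B K : Subgroup G} (hA : Group.IsNilpotent A)
    (hK : FactorizedIn A B K) (hpB : ¬ p ∣ Nat.card B) : pPart p K ≤ A := by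
  rintro _ ⟨x, hx, rfl⟩
  refine pCore_le_left (isNilpotent_subgroupOf hA K) hK.factor (fun h => hpB (h.trans ?_)) hx
  rw [← Subgroup.card_map_of_injective K.subtype_injective, Subgroup.subgroupOf_map_subtype]
  exact Subgroup.card_dvd_of_le inf_le_left

/-- The subgroup generated by the `r`-parts, `r ≠ t`. -/
def pCompl (t : ℕ) (A : Subgroup G) : Subgroup G := ⨆ r : {r : ℕ // r.Prime ∧ r ≠ t}, pPart r.1 A

theorem pCompl_le (t : ℕ) (A : Subgroup G) : pCompl t A ≤ A := iSup_le fun _ => pPart_le _ _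

theorem pPart_le_pCompl {r t : ℕ} (hr : r.Prime) (hrt : r ≠ t) (A : Subgroup G) : pPart r A ≤ pCompl t A :=
  le_iSup (fun r : {r : ℕ // r.Prime ∧ r ≠ t} => pPart r.1 A) ⟨r, hr, hrt⟩

theorem le_normalizer_pCompl [Finite G] (t : ℕ) (A : Subgroup G) :
    A ≤ Subgroup.normalizer (pCompl t A : Set G) := by
  intro a ha
  refine map_conj_eq_of_le ?_
  rw [Subgroup.map_le_iff_le_comap]
  exact iSup_le fun r x hx => pPart_le_pCompl r.2.1 r.2.2 A
    (conj_mem_of_mem_normalizer (le_normalizer_pPart r.1 A ha) hx)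

end CfsgLib.KegelWielandt
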