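import Cfsg.Agent.KegelWielandt.Base
import Cfsg.Agent.Hall.StructBatch3
import Cfsg.Agent.Hall.StructBatch5

/-!
Sylow subgroups of a product of two nilpotent subgroups, and a variant of Kegel's lemma.
-/

set_option autoImplicit false
set_option linter.style.haveILetI false

namespace CfsgLib.KegelWielandt

open scoped Pointwise
open CfsgLib.Hall.Struct (Permutes card_mul_inf)

variable {G : Type*} [Group G]

theorem Factor.card_mul [Finite G] {A B : Subgroup G} (h : Factor A B) :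
    Nat.card G * Nat.card (A ⊓ B : Subgroup G) = Nat.card A * Nat.card B := by
  have e : (A : Set G) * (B : Set G) = Set.univ := Set.eq_univ_iff_forall.2 fun g => by
    obtain ⟨a, ha, b, hb, rfl⟩ := h g
    exact Set.mul_mem_mul ha hb
  rw [← card_mul_inf A B, e, Nat.card_univ]

/-- A Sylow subgroup of a product of nilpotent subgroups is the product of those of the factors. -/
theorem sylow_product [Finite G] {p : ℕ} [hp : Fact p.Prime] {A B : Subgroup G} (hA : Group.IsNilpotent A)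
    (hB : Group.IsNilpotent B) (hAB : Factor A B) :
    ∃ P : Sylow p G, pPart p A ≤ (P : Subgroup G) ∧ pPart p B ≤ (P : Subgroup G) ∧
      ((P : Subgroup G) : Set G) = (pPart p A : Set G) * (pPart p B : Set G) := by
  obtain ⟨P₀, hP₀⟩ := (isPGroup_pPart p A).exists_le_sylow
  obtain ⟨P₁, hP₁⟩ := (isPGroup_pPart p B).exists_le_sylow
  obtain ⟨g, hg⟩ := MulAction.exists_smul_eq G P₀ P₁
  obtain ⟨b, hb, a, ha, e⟩ := hAB.symm g
  subst hg e
  have h1 : pPart p A ≤ ((a • P₀ : Sylow p G) : Subgroup G) := by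
    intro x hx
    rw [Sylow.coe_subgroup_smul, Subgroup.mem_pointwise_smul_iff_inv_smul_mem]
    simpa using hP₀ (conj_mem_of_mem_normalizer' (le_normalizer_pPart p A ha) hx)
  have h2 : pPart p B ≤ ((a • P₀ : Sylow p G) : Subgroup G) := by
    intro x hx
    have h := hP₁ (conj_mem_of_mem_normalizer (le_normalizer_pPart p B hb) hx)
    rw [mul_smul, Sylow.coe_subgroup_smul, Subgroup.mem_pointwise_smul_iff_inv_smul_mem] at h
    simpa [mul_assoc] using h
  refine ⟨a • P₀, h1, h2, ?_⟩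
  set P : Sylow p G := a • P₀
  have hsub : (pPart p A : Set G) * (pPart p B : Set G) ⊆ ((P : Subgroup G) : Set G) := by
    rintro _ ⟨x, hx, y, hy, rfl⟩
    exact (P : Subgroup G).mul_mem (h1 hx) (h2 hy)
  refine (Set.eq_of_subset_of_ncard_le hsub ?_ (Set.toFinite _)).symm
  rw [← Nat.card_coe_set_eq, ← Nat.card_coe_set_eq]
  have h3 := hAB.card_mul
  have h4 := card_mul_inf (pPart p A) (pPart p B)
  obtain ⟨k, hk⟩ := IsPGroup.iff_card.1 ((isPGroup_pPart p A).to_le (inf_le_left : pPart p A ⊓ pPart p B ≤ _))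
  have h5 : p ^ k ∣ Nat.card (A ⊓ B : Subgroup G) :=
    hk ▸ Subgroup.card_dvd_of_le (inf_le_inf (pPart_le p A) (pPart_le p B))
  have h6 : k ≤ (Nat.card (A ⊓ B : Subgroup G)).factorization p :=
    (hp.out.pow_dvd_iff_le_factorization Nat.card_pos.ne').1 h5
  have h7 := congrArg (fun n => n.factorization p) h3
  rw [Nat.factorization_mul Nat.card_pos.ne' Nat.card_pos.ne', Nat.factorization_mul Nat.card_pos.ne'
    Nat.card_pos.ne', Finsupp.add_apply, Finsupp.add_apply] at h7
  rw [exists_sylow_pPart hA, exists_sylow_pPart hB, ← pow_add, hk] at h4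
  rw [show Nat.card ((P : Subgroup G) : Set G) = Nat.card (P : Subgroup G) from rfl, Sylow.card_eq_multiplicity]
  refine Nat.le_of_mul_le_mul_right (c := p ^ k) ?_ (pow_pos hp.out.pos k)
  rw [h4, ← pow_add]
  exact Nat.pow_le_pow_right hp.out.pos (by omega)

/-- If all `Aʸ B` are `p`-subgroups then some `p`-subgroup over `B` is normalized by the normal closure of `A`. -/
theorem kegel_pgroup [Finite G] {p : ℕ} [hp : Fact p.Prime] (A : Subgroup G) :
    ∀ (k : ℕ) (B : Subgroup G), Nat.card G - Nat.card B = k →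
      (∀ y : G, Permutes (MulAut.conj y • A) B ∧ IsPGroup p (MulAut.conj y • A ⊔ B : Subgroup G)) →
      ∃ B' : Subgroup G, B ≤ B' ∧ IsPGroup p B' ∧
        Subgroup.normalClosure (A : Set G) ≤ Subgroup.normalizer (B' : Set G) := by
  intro k
  induction k using Nat.strong_induction_on with
  | _ k IH =>
  intro B hk hAB
  by_cases hall : Subgroup.normalClosure (A : Set G) ≤ Subgroup.normalizer (B : Set G)
  · exact ⟨B, le_rfl, (hAB 1).2.to_le le_sup_right, hall⟩
  obtain ⟨x, a, ha, haB⟩ : ∃ x : G, ∃ a ∈ MulAut.conj x • A, MulAut.conj a • B ≠ B := by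
    by_contra hcon
    push Not at hcon
    refine hall ((Subgroup.closure_le _).mpr fun g hg => ?_)
    obtain ⟨a₀, ha₀, hc⟩ := Group.mem_conjugatesOfSet_iff.mp hg
    obtain ⟨x, rfl⟩ := isConj_iff.mp hc
    have h := hcon x (x * a₀ * x⁻¹) ⟨a₀, ha₀, rfl⟩
    refine Subgroup.mem_normalizer_fintype fun b hb => ?_
    have hb' : x * a₀ * x⁻¹ * b * (x * a₀ * x⁻¹)⁻¹ ∈ MulAut.conj (x * a₀ * x⁻¹) • B := ⟨b, hb, rfl⟩
    rwa [h] at hb'
  set J := B ⊔ MulAut.conj a • B with hJ
  set S := MulAut.conj x • A ⊔ B with hS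
  have hJS : J ≤ S := by
    refine sup_le le_sup_right ?_
    rintro _ ⟨b, hb, rfl⟩
    exact S.mul_mem (S.mul_mem (Subgroup.mem_sup_left ha) (Subgroup.mem_sup_right hb))
      (S.inv_mem (Subgroup.mem_sup_left ha))
  have hlt : Nat.card B < Nat.card J := by
    refine lt_of_le_of_ne (Nat.le_of_dvd Nat.card_pos (Subgroup.card_dvd_of_le le_sup_left)) fun he => ?_
    have hBJ : B = J := Subgroup.eq_of_le_of_card_ge le_sup_left he.ge
    refine haB (Subgroup.eq_of_le_of_card_ge (le_sup_right.trans hBJ.ge) ?_)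
    rw [Nat.card_congr (Subgroup.equivSMul (MulAut.conj a) B).toEquiv]
  have hperm : ∀ y : G, Permutes (MulAut.conj y • A) J := fun y => by
    refine (hAB y).1.sup ?_
    rintro u hu _ ⟨b, hb, rfl⟩
    have hu' : a⁻¹ * u * a ∈ MulAut.conj (a⁻¹ * y) • A := by
      obtain ⟨v, hv, rfl⟩ := hu
      exact ⟨v, hv, by simp [mul_assoc]⟩
    obtain ⟨x', hx', b', hb', e⟩ := (hAB (a⁻¹ * y)).1 _ hu' b hb
    refine ⟨a * x' * a⁻¹, ?_, MulAut.conj a b', ⟨b', hb', rfl⟩, ?_⟩
    · obtain ⟨v, hv, rfl⟩ := hx'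
      exact ⟨v, hv, by simp [mul_assoc]⟩
    · simp only [MulAut.conj_apply, MulDistribMulAction.toMonoidEnd_apply, MulAut.smul_def,
        MulDistribMulAction.toMonoidHom_apply]
      calc a * b * a⁻¹ * u = a * (b * (a⁻¹ * u * a)) * a⁻¹ := by group
        _ = a * (x' * b') * a⁻¹ := by rw [e]
        _ = a * x' * a⁻¹ * (a * b' * a⁻¹) := by group
  have hJp : IsPGroup p J := (hAB x).2.to_le hJS
  have hsup : ∀ y : G, IsPGroup p (MulAut.conj y • A ⊔ J : Subgroup G) := by
    intro y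
    have e : ((MulAut.conj y • A ⊔ J : Subgroup G) : Set G) = ((MulAut.conj y • A : Subgroup G) : Set G) * (J : Set G) := by
      refine Set.Subset.antisymm (fun g hg => ?_) ?_
      · obtain ⟨u, hu, v, hv, rfl⟩ := (hperm y).exists_eq_mul hg
        exact Set.mul_mem_mul hu hv
      · rintro _ ⟨u, hu, v, hv, rfl⟩
        exact Subgroup.mul_mem _ (Subgroup.mem_sup_left hu) (Subgroup.mem_sup_right hv)
    have hc := card_mul_inf (MulAut.conj y • A) J
    rw [← e] at hc
    obtain ⟨i, hi⟩ := IsPGroup.iff_card.1 ((hAB y).2.to_le le_sup_left)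
    obtain ⟨j, hj⟩ := IsPGroup.iff_card.1 hJp
    rw [hi, hj, ← pow_add] at hc
    obtain ⟨l, -, hl⟩ := (Nat.dvd_prime_pow hp.out).1 ⟨_, hc.symm⟩
    exact IsPGroup.of_card hl
  obtain ⟨B', h1, h2, h3⟩ := IH (Nat.card G - Nat.card J)
    (by have := Subgroup.card_le_card_group J; omega) J rfl fun y => ⟨hperm y, hsup y⟩
  exact ⟨B', le_sup_left.trans h1, h2, h3⟩

/-- The hypothesis of `kegel_pgroup` for the Sylow factors of a product of nilpotent subgroups. -/
theorem pPart_kegel_hyp [Finite G] {p : ℕ} [hp : Fact p.Prime] {A B : Subgroup G} (hA : Group.IsNilpotent A)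
    (hB : Group.IsNilpotent B) (hAB : Factor A B) (y : G) :
    Permutes (MulAut.conj y • pPart p A) (pPart p B) ∧
      IsPGroup p (MulAut.conj y • pPart p A ⊔ pPart p B : Subgroup G) := by
  obtain ⟨P, hPA, hPB, hP⟩ := sylow_product (p := p) hA hB hAB
  obtain ⟨b, hb, a, ha, rfl⟩ := hAB.symm y
  constructor
  · rintro _ ⟨u, hu, rfl⟩ v hv
    have hbv := conj_mem_of_mem_normalizer' (le_normalizer_pPart p B hb) hv
    have hau := conj_mem_of_mem_normalizer (le_normalizer_pPart p A ha) hu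
    have h : b⁻¹ * v * b * (a * u * a⁻¹) ∈ ((P : Subgroup G) : Set G) :=
      (P : Subgroup G).mul_mem (hPB hbv) (hPA hau)
    rw [hP] at h
    obtain ⟨a', ha', b', hb', e⟩ := h
    refine ⟨b * a' * b⁻¹, ⟨a⁻¹ * a' * a, conj_mem_of_mem_normalizer' (le_normalizer_pPart p A ha) ha', ?_⟩,
      b * b' * b⁻¹, conj_mem_of_mem_normalizer (le_normalizer_pPart p B hb) hb', ?_⟩
    · change b * a * (a⁻¹ * a' * a) * (b * a)⁻¹ = _
      group
    · change v * (b * a * u * (b * a)⁻¹) = _
      have e' : a' * b' = b⁻¹ * v * b * (a * u * a⁻¹) := e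
      calc v * (b * a * u * (b * a)⁻¹) = b * (b⁻¹ * v * b * (a * u * a⁻¹)) * b⁻¹ := by group
        _ = b * (a' * b') * b⁻¹ := by rw [e']
        _ = b * a' * b⁻¹ * (b * b' * b⁻¹) := by group
  · refine IsPGroup.to_le ((b • P : Sylow p G).2) (sup_le ?_ fun v hv => ?_)
    · rintro _ ⟨u, hu, rfl⟩
      show _ ∈ ((b • P : Sylow p G) : Subgroup G)
      rw [Sylow.coe_subgroup_smul, Subgroup.mem_pointwise_smul_iff_inv_smul_mem]
      simpa [mul_assoc] using hPA (conj_mem_of_mem_normalizer (le_normalizer_pPart p A ha) hu)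
    · show v ∈ ((b • P : Sylow p G) : Subgroup G)
      rw [Sylow.coe_subgroup_smul, Subgroup.mem_pointwise_smul_iff_inv_smul_mem]
      simpa [mul_assoc] using hPB (conj_mem_of_mem_normalizer' (le_normalizer_pPart p B hb) hv)

end CfsgLib.KegelWielandt
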