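import Cfsg.Agent.KegelWielandt.Coprime
import Cfsg.Agent.CoprimeAction.Hyperplane
import Cfsg.Agent.S0079

/-!
No simple group is a product of two nilpotent subgroups of coprime orders.
-/

set_option autoImplicit false
set_option linter.style.haveILetI false

namespace CfsgLib.KegelWielandt

open scoped Pointwise

variable {G : Type*} [Group G] [Finite G]

theorem exists_ne_one_of_ne_bot {H : Subgroup G} (h : H ≠ ⊥) : ∃ x ∈ H, x ≠ 1 := by
  obtain ⟨x, hx⟩ := Subgroup.ne_bot_iff_exists_ne_one.1 h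
  exact ⟨x, x.2, fun e => hx (Subtype.ext e)⟩

namespace Ctx

variable {A B : Subgroup G}

theorem centralizer_le (c : Ctx A B) {z : G} (hzC : z ∈ Subgroup.centralizer (A : Set G)) (hz1 : z ≠ 1) :
    Subgroup.centralizer ({z} : Set G) ≤ A := by
  intro g hg
  obtain ⟨a, ha, b, hb, rfl⟩ := c.fac g
  have ha' : a ∈ Subgroup.centralizer ({z} : Set G) :=
    Subgroup.mem_centralizer_singleton_iff.2 (Subgroup.mem_centralizer_iff.1 hzC a ha)
  have hb' : b ∈ B ⊓ Subgroup.centralizer ({z} : Set G) := ⟨hb, by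
    simpa [← mul_assoc] using mul_mem (inv_mem ha') hg⟩
  rw [c.eq_bot_of_normalized hzC hz1 inf_le_left (Subgroup.mem_normalizer_fintype fun x hx => by
    rwa [← Subgroup.mem_centralizer_singleton_iff.1 hx.2, mul_inv_cancel_right]), Subgroup.mem_bot] at hb'
  rwa [hb', mul_one]

/-- Every proper overgroup of `A` normalizes `A`. -/
theorem overgroup_le (c : Ctx A B) {H : Subgroup G} (hH : H ≠ ⊤) (hAH : A ≤ H) :
    H ≤ Subgroup.normalizer (A : Set G) := by
  have hHf : FactorizedIn A B H := factorizedIn_of_le c.fac hAH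
  haveI := c.sol H hH hHf
  have hq : ∀ q : ℕ, q.Prime → H ≤ Subgroup.normalizer (pPart q A : Set G) := by
    intro q hq
    haveI := Fact.mk hq
    obtain ⟨r, hr, hrA, hrq, z, hzA, hzC, hzr, hzo⟩ := c.exists_central_prime q
    haveI := Fact.mk hr
    have hz1 : z ≠ 1 := by
      rintro rfl
      rw [orderOf_one] at hzo
      exact hr.ne_one hzo.symm
    have hle : (Cfsg.fittingSubgroup H).map H.subtype ≤ Subgroup.centralizer ({z} : Set G) := by
      refine fittingMap_le fun t ht => ?_
      haveI := Fact.mk ht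
      by_cases htB : t ∣ Nat.card B
      · rw [c.eq_bot_of_normalized hzC hz1 (pPart_le_left c.hB hHf.symm (not_dvd_of_coprime ht c.cop.symm htB))
          (le_normalizer_pPart t H (hAH hzA))]
        exact bot_le
      · exact fun x hx => Subgroup.mem_centralizer_singleton_iff.2 (Subgroup.mem_centralizer_iff.1 hzC x
          (pPart_le_left c.hA hHf htB hx))
    have hzF : (⟨z, hAH hzA⟩ : H) ∈ Cfsg.fittingSubgroup H :=
      CfsgLib.Hall.centralizer_fitting_le (Subgroup.mem_centralizer_iff.2 fun x hx =>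
        Subtype.ext (Subgroup.mem_centralizer_singleton_iff.1 (hle ⟨x, hx, rfl⟩)))
    have hzp : IsPGroup r (Subgroup.zpowers (⟨z, hAH hzA⟩ : H)) :=
      ((isPGroup_zpowers_of_orderOf hzo).comap_of_injective H.subtype H.subtype_injective).to_le
        (Subgroup.zpowers_le.2 (Subgroup.mem_zpowers z))
    set D := Subgroup.centralizer (Cfsg.pCore r H : Set H) with hD
    haveI : (Cfsg.pCore r H).Normal := Cfsg.pCore_normal r H
    haveI : D.Normal := Subgroup.normal_centralizer
    have hDA : D.map H.subtype ≤ A := by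
      rintro _ ⟨x, hx, rfl⟩
      refine c.centralizer_le hzC hz1 (Subgroup.mem_centralizer_singleton_iff.2 ?_)
      exact (congrArg Subtype.val (Subgroup.mem_centralizer_iff.1 hx _ (mem_pCore_of_mem_fitting hzF hzp)) :).symm
    have hDn : Group.IsNilpotent D := by
      haveI := isNilpotent_of_le c.hA hDA
      exact Group.nilpotent_of_surjective (D.equivMapOfInjective H.subtype H.subtype_injective).symm.toMonoidHom
        (D.equivMapOfInjective H.subtype H.subtype_injective).symm.surjective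
    have hrB : ¬ r ∣ Nat.card B := not_dvd_of_coprime hr c.cop hrA
    have h1 : pPart q A ≤ pPart q H := by
      intro x hx
      have hxD : (⟨x, hAH (pPart_le q A hx)⟩ : H) ∈ D := Subgroup.mem_centralizer_iff.2 fun w hw => by
        refine Subtype.ext (pPart_commute hrq ?_ hx).eq
        exact le_pPart c.hA (isPGroup_pPart r H) (pPart_le_left c.hA hHf hrB) ⟨w, hw, rfl⟩
      refine ⟨⟨x, hAH (pPart_le q A hx)⟩, mem_pCore_of_mem_fitting
        (CfsgLib.Components.le_fittingSubgroup inferInstance hDn hxD) ?_, rfl⟩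
      exact (((isPGroup_pPart q A).to_le (Subgroup.zpowers_le.2 hx)).comap_of_injective H.subtype
        H.subtype_injective).to_le (Subgroup.zpowers_le.2 (Subgroup.mem_zpowers x))
    by_cases hqB : q ∣ Nat.card B
    · have : pPart q A = ⊥ := Subgroup.card_eq_one.1 (by
        rw [exists_sylow_pPart c.hA, Nat.factorization_eq_zero_of_not_dvd
          (not_dvd_of_coprime hq c.cop.symm hqB), pow_zero])
      rw [this, Subgroup.normalizer_eq_top_iff.2 inferInstance]
      exact le_top
    · have e : pPart q A = pPart q H := le_antisymm h1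
        (le_pPart c.hA (isPGroup_pPart q H) (pPart_le_left c.hA hHf hqB))
      rw [e]
      exact le_normalizer_pPart q H
  intro h hh
  refine map_conj_eq_of_le ?_
  rw [Subgroup.map_le_iff_le_comap]
  exact le_of_pPart_le c.hA fun q hq' x hx => pPart_le q A (conj_mem_of_mem_normalizer (hq q hq' hh) hx)

theorem normalizer_left_ne_top (c : Ctx A B) : Subgroup.normalizer (A : Set G) ≠ ⊤ := by
  refine c.normalizer_ne_top (fun h => ?_) le_rfl
  obtain ⟨q, hq, hqA, -⟩ := c.twoA 1
  rw [h, Subgroup.card_bot] at hqA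
  exact hq.not_dvd_one hqA

theorem mem_of_mem_normalizer (c : Ctx A B) {g : G} (hg : g ∈ Subgroup.normalizer (A : Set G))
    (ho : g ^ Nat.card A = 1) : g ∈ A := by
  obtain ⟨a, ha, b, hb, rfl⟩ := c.fac g
  have hbN : b ∈ Subgroup.normalizer (A : Set G) := by
    simpa [← mul_assoc] using mul_mem (inv_mem (Subgroup.le_normalizer ha)) hg
  have hind : ∀ k : ℕ, ∃ a' ∈ A, (a * b) ^ k = a' * b ^ k := by
    intro k
    induction k with
    | zero => exact ⟨1, A.one_mem, by simp⟩
    | succ k IH =>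
      obtain ⟨a', ha', e⟩ := IH
      refine ⟨a' * (b ^ k * a * (b ^ k)⁻¹), A.mul_mem ha' (conj_mem_of_mem_normalizer (pow_mem hbN k) ha), ?_⟩
      rw [pow_succ, e, pow_succ]; group
  obtain ⟨a', ha', e⟩ := hind (Nat.card A)
  rw [ho] at e
  have h1 : b ^ Nat.card A = a'⁻¹ := eq_inv_of_mul_eq_one_right e.symm
  have h2 : b ^ Nat.card A = 1 := c.eq_one_of_mem (h1 ▸ A.inv_mem ha') (B.pow_mem hb _)
  have h3 : b = 1 := orderOf_eq_one_iff.1 (Nat.eq_one_of_dvd_coprimes c.cop (orderOf_dvd_of_pow_eq_one h2)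
    (Subgroup.orderOf_dvd_natCard B hb))
  rwa [h3, mul_one]

/-- Only elements normalizing `A` move a nontrivial central element of `A` into `A`. -/
theorem semiregular (c : Ctx A B) {z : G} (hzA : z ∈ A) (hzC : z ∈ Subgroup.centralizer (A : Set G))
    (hz1 : z ≠ 1) {g : G} (hg : g * z * g⁻¹ ∈ A) : g ∈ Subgroup.normalizer (A : Set G) := by
  obtain ⟨s, hs, hsz⟩ := Nat.exists_prime_and_dvd (n := orderOf z) fun h => hz1 (orderOf_eq_one_iff.1 h)
  haveI := Fact.mk hs
  set w := z ^ (orderOf z / s) with hw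
  have hwo : orderOf w = s := orderOf_pow_orderOf_div (orderOf_pos z).ne' hsz
  have hwA : g * w * g⁻¹ ∈ A := by rw [hw, ← conj_pow]; exact A.pow_mem hg _
  obtain ⟨r, hr, hrA, hrs⟩ := c.twoA s
  haveI := Fact.mk hr
  have hws : g * w * g⁻¹ ∈ pPart s A := mem_pPart c.hA hwA (isPGroup_zpowers_of_orderOf (by
    rw [← hwo]; exact orderOf_injective (MulAut.conj g).toMonoidHom (MulEquiv.injective _) w))
  have hgN : g ∈ Subgroup.normalizer (pPart r A : Set G) := by
    refine inv_mem_iff.1 (Subgroup.mem_normalizer_fintype fun x hx => ?_)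
    rw [inv_inv]
    have hwz : w ∈ Subgroup.centralizer (A : Set G) := Subgroup.pow_mem _ hzC _
    have h1 : g⁻¹ * x * g ∈ A := by
      refine c.centralizer_le hwz (fun h => hs.ne_one (by rw [← hwo, h, orderOf_one]))
        (Subgroup.mem_centralizer_singleton_iff.2 ?_)
      calc g⁻¹ * x * g * w = g⁻¹ * (x * (g * w * g⁻¹)) * g := by group
        _ = g⁻¹ * (g * w * g⁻¹ * x) * g := by rw [(pPart_commute hrs hx hws).eq]
        _ = w * (g⁻¹ * x * g) := by group
    have h2 := ((isPGroup_pPart r A).to_le (Subgroup.zpowers_le.2 hx)).map (MulAut.conj g⁻¹).toMonoidHom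
    rw [MonoidHom.map_zpowers, MulEquiv.coe_toMonoidHom, MulAut.conj_apply, inv_inv] at h2
    exact mem_pPart c.hA h1 h2
  exact c.overgroup_le (c.normalizer_ne_top (pPart_ne_bot c.hA hrA) (pPart_le r A))
    (le_normalizer_pPart r A) hgN

/-- A nontrivial element of `B` normalizing `A` has its centralizer inside the normalizer of `B`. -/
theorem centralizer_le_normalizer (c : Ctx A B) {y : G} (hyB : y ∈ B) (hyM : y ∈ Subgroup.normalizer (A : Set G))
    (hy1 : y ≠ 1) : Subgroup.centralizer ({y} : Set G) ≤ Subgroup.normalizer (B : Set G) := by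
  obtain ⟨t, ht, hty⟩ := Nat.exists_prime_and_dvd (n := orderOf y) fun h => hy1 (orderOf_eq_one_iff.1 h)
  haveI := Fact.mk ht
  set w := y ^ (orderOf y / t) with hw
  have hwo : orderOf w = t := orderOf_pow_orderOf_div (orderOf_pos y).ne' hty
  have hCC : Subgroup.centralizer ({y} : Set G) ≤ Subgroup.centralizer ({w} : Set G) := fun x hx =>
    Subgroup.mem_centralizer_singleton_iff.2
      ((Commute.pow_right (Subgroup.mem_centralizer_singleton_iff.1 hx : Commute x y) _).eq)
  refine hCC.trans ?_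
  set M := Subgroup.normalizer (A : Set G)
  have hwB : w ∈ B := B.pow_mem hyB _
  have hwM : w ∈ M := pow_mem hyM _
  obtain ⟨q, hq, hqA, -, z, hzA, hzC, -, hzo⟩ := c.exists_central_prime 1
  -- commuting elements of order `t` generate the same subgroup
  have hcyc : ∀ v v' : G, v ∈ B → v ∈ M → orderOf v = t → v' ∈ B → v' ∈ M → orderOf v' = t → Commute v v' →
      v' ∈ Subgroup.zpowers v := by
    intro v v' hv hvM hvo hv' hv'M hv'o hcom
    set E := Subgroup.closure ({v, v'} : Set G) with hE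
    haveI : IsMulCommutative E := by
      refine Subgroup.isMulCommutative_closure ?_
      rintro x (rfl | rfl) x' (rfl | rfl)
      exacts [rfl, hcom.eq, hcom.symm.eq, rfl]
    have hEB : E ≤ B ⊓ M := (Subgroup.closure_le _).2 (by
      rintro x (rfl | rfl)
      exacts [⟨hv, hvM⟩, ⟨hv', hv'M⟩])
    have hexp : ∀ x ∈ E, x ^ t = 1 := by
      intro x hx
      induction hx using Subgroup.closure_induction with
      | mem x hx => rcases hx with rfl | rfl
                    · rw [← hvo, pow_orderOf_eq_one]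
                    · rw [← hv'o, pow_orderOf_eq_one]
      | one => exact one_pow t
      | mul a b ha hb iha ihb =>
        have hab : Commute a b := congrArg Subtype.val (IsMulCommutative.is_comm.comm (⟨a, ha⟩ : E) ⟨b, hb⟩)
        rw [hab.mul_pow, iha, ihb, mul_one]
      | inv a _ iha => rw [inv_pow, iha, inv_one]
    have hvE : v ∈ E := Subgroup.subset_closure (Set.mem_insert v _)
    have hE0 : E ≠ ⊥ := fun h => by
      rw [h, Subgroup.mem_bot] at hvE
      rw [hvE, orderOf_one] at hvo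
      exact ht.ne_one hvo.symm
    by_contra hv'v
    set K := A ⊓ Subgroup.centralizer (A : Set G) with hK
    have hEK : E ≤ Subgroup.normalizer (K : Set G) := by
      intro x hx
      refine Subgroup.mem_normalizer_fintype fun k hk => ⟨conj_mem_of_mem_normalizer (hEB hx).2 hk.1, ?_⟩
      refine Subgroup.mem_centralizer_iff.2 fun a ha => ?_
      have h := Subgroup.mem_centralizer_iff.1 hk.2 _ (conj_mem_of_mem_normalizer' (hEB hx).2 ha)
      calc a * (x * k * x⁻¹) = x * ((x⁻¹ * a * x) * k) * x⁻¹ := by group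
        _ = x * (k * (x⁻¹ * a * x)) * x⁻¹ := by rw [h]
        _ = x * k * x⁻¹ * a := by group
    have hcop : (Nat.card E).Coprime (Nat.card K) :=
      (c.cop.symm.coprime_dvd_left (Subgroup.card_dvd_of_le (hEB.trans inf_le_left))).coprime_dvd_right
        (Subgroup.card_dvd_of_le inf_le_left)
    have hle := CfsgLib.CoprimeAction.le_of_hyperplane_centralizers_le hE0 hexp hEK hcop (W := ⊥)
      fun S hSE hrel k hk => by
        rw [Subgroup.mem_bot]
        by_contra hk1
        have hS0 : S ≠ ⊥ := by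
          rintro rfl
          rw [Subgroup.relIndex_bot_left] at hrel
          have he : Subgroup.zpowers v = E := Subgroup.eq_of_le_of_card_ge (Subgroup.zpowers_le.2 hvE)
            (by rw [hrel, Nat.card_zpowers, hvo])
          exact hv'v (he ▸ Subgroup.subset_closure (Set.mem_insert_of_mem v rfl))
        obtain ⟨x, hx, hx1⟩ := exists_ne_one_of_ne_bot hS0
        refine hx1 (c.eq_one_of_mem (c.centralizer_le hk.1.2 hk1 (Subgroup.mem_centralizer_singleton_iff.2 ?_))
          (hEB (hSE hx)).1)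
        exact Subgroup.mem_centralizer_iff.1 hk.2 x hx
    have hz1 : z ∈ (⊥ : Subgroup G) := hle ⟨hzA, hzC⟩
    rw [Subgroup.mem_bot] at hz1
    rw [hz1, orderOf_one] at hzo
    exact hq.ne_one hzo.symm
  -- a central one
  set P₀ := pPart t B ⊓ M with hP₀
  have hwP : w ∈ P₀ := ⟨mem_pPart c.hB hwB (isPGroup_zpowers_of_orderOf hwo), hwM⟩
  have hP₀p : IsPGroup t P₀ := (isPGroup_pPart t B).to_le inf_le_left
  have hne : P₀ ≠ ⊥ := fun h => by
    rw [h, Subgroup.mem_bot] at hwP
    rw [hwP, orderOf_one] at hwo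
    exact ht.ne_one hwo.symm
  have h0 := CfsgLib.ZJ.center_inf_ne_bot hP₀p hne
  obtain ⟨k, hk⟩ := IsPGroup.iff_card.1
    (hP₀p.to_le (inf_le_left : P₀ ⊓ Subgroup.centralizer (P₀ : Set G) ≤ _))
  have hk0 : k ≠ 0 := fun e => h0 (Subgroup.card_eq_one.1 (by rw [hk, e, pow_zero]))
  obtain ⟨v, hv⟩ := exists_prime_orderOf_dvd_card' t
    (show t ∣ Nat.card (P₀ ⊓ Subgroup.centralizer (P₀ : Set G) : Subgroup G) by rw [hk]; exact dvd_pow_self t hk0)
  rw [← Subgroup.orderOf_coe] at hv
  have hgen : ∀ x : G, x ∈ B → x ∈ M → orderOf x = t → Subgroup.zpowers x = Subgroup.zpowers (v : G) := by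
    intro x hxB hxM hxo
    have hxP : x ∈ P₀ := ⟨mem_pPart c.hB hxB (isPGroup_zpowers_of_orderOf hxo), hxM⟩
    refine Subgroup.eq_of_le_of_card_ge (Subgroup.zpowers_le.2 (hcyc v x (pPart_le t B v.2.1.1) v.2.1.2 hv hxB hxM hxo
      (Subgroup.mem_centralizer_iff.1 v.2.2 x hxP : Commute x v).symm)) ?_
    rw [Nat.card_zpowers, Nat.card_zpowers, hxo, hv]
  set Y := Subgroup.zpowers w with hYdef
  have hfac : FactorizedIn A B (Subgroup.normalizer (Y : Set G)) := by
    intro g hg
    obtain ⟨a, ha, b, hb, rfl⟩ := c.fac g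
    have h1 : a * b * w * (a * b)⁻¹ ∈ Y := conj_mem_of_mem_normalizer hg (Subgroup.mem_zpowers w)
    have h2 : b * w * b⁻¹ ∈ M := by
      have h3 : a⁻¹ * (a * b * w * (a * b)⁻¹) * a ∈ M := mul_mem (mul_mem
        (inv_mem (Subgroup.le_normalizer ha)) (Subgroup.zpowers_le.2 hwM h1)) (Subgroup.le_normalizer ha)
      simpa [mul_assoc] using h3
    have h4 : b * w * b⁻¹ ∈ Y := by
      rw [hYdef, hgen w hwB hwM hwo, ← hgen _ (B.mul_mem (B.mul_mem hb hwB) (B.inv_mem hb)) h2 (by
        rw [← hwo]; exact orderOf_injective (MulAut.conj b).toMonoidHom (MulEquiv.injective _) w)]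
      exact Subgroup.mem_zpowers _
    have hb' : b ∈ Subgroup.normalizer (Y : Set G) := Subgroup.mem_normalizer_fintype fun x hx => by
      obtain ⟨i, rfl⟩ := Subgroup.mem_zpowers_iff.1 hx
      rw [← conj_zpow]
      exact Subgroup.zpow_mem _ h4 _
    have ha' : a * b * b⁻¹ ∈ Subgroup.normalizer (Y : Set G) := mul_mem hg (inv_mem hb')
    rw [mul_inv_cancel_right] at ha'
    exact ⟨a, ⟨ha, ha'⟩, b, ⟨hb, hb'⟩, rfl⟩
  have hY0 : Y ≠ ⊥ := fun h => by
    rw [hYdef, Subgroup.zpowers_eq_bot] at h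
    rw [h, orderOf_one] at hwo
    exact ht.ne_one hwo.symm
  obtain ⟨H, hH, hBH, hKH⟩ := c.exists_overgroup (Subgroup.zpowers_le.2 hwB)
    (isPGroup_zpowers_of_orderOf hwo) hY0 hfac
  intro x hx
  refine c.symm.overgroup_le hH hBH (hKH (Subgroup.mem_normalizer_fintype fun u hu => ?_))
  obtain ⟨i, rfl⟩ := Subgroup.mem_zpowers_iff.1 hu
  rwa [(Commute.zpow_right (Subgroup.mem_centralizer_singleton_iff.1 hx : Commute x w) i).eq, mul_inv_cancel_right]

/-- The centralizer of every nontrivial abelian subgroup of `A` normalizes `A`. -/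
theorem abelian_centralizer_le (c : Ctx A B) : ∀ (k : ℕ) (D : Subgroup G), Nat.card A - Nat.card D = k →
    D ≤ A → D ≠ ⊥ → D ≤ Subgroup.centralizer (D : Set G) →
    Subgroup.centralizer (D : Set G) ≤ Subgroup.normalizer (A : Set G) := by
  intro k
  induction k using Nat.strong_induction_on with
  | _ k IH =>
  intro D hk hDA hD0 hDab
  set M := Subgroup.normalizer (A : Set G)
  set C := Subgroup.centralizer (D : Set G)
  by_contra hCM
  have hZ : ∀ d ∈ D, d ∈ Subgroup.centralizer (A : Set G) → d = 1 := by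
    intro d hd hdC
    by_contra hd1
    refine hCM (le_trans ?_ Subgroup.le_normalizer)
    refine le_trans ?_ (c.centralizer_le hdC hd1)
    exact fun x hx => Subgroup.mem_centralizer_singleton_iff.2 (Subgroup.mem_centralizer_iff.1 hx d hd).symm
  have hCMA : ∀ g ∈ C, g ∈ M → g ∈ A := by
    intro g hgC hgM
    by_contra hgA
    have hn : ¬ orderOf g ∣ Nat.card A := fun h =>
      hgA (c.mem_of_mem_normalizer hgM (orderOf_dvd_iff_pow_eq_one.1 h))
    obtain ⟨t, ht, htg, htB⟩ : ∃ t : ℕ, t.Prime ∧ t ∣ orderOf g ∧ t ∣ Nat.card B := by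
      by_contra hcon
      push Not at hcon
      refine hn (Nat.Coprime.dvd_of_dvd_mul_right (show (orderOf g).Coprime (Nat.card B) from Nat.coprime_of_dvd fun t ht h1 h2 => hcon t ht h1 h2)
        ?_)
      rw [← c.fac.card_mul]
      exact (orderOf_dvd_natCard g).mul_right _
    haveI := Fact.mk ht
    set w := g ^ (orderOf g / t) with hw
    have hwo : orderOf w = t := orderOf_pow_orderOf_div (orderOf_pos g).ne' htg
    have hwM : w ∈ M := pow_mem hgM _
    have hwC : w ∈ C := pow_mem hgC _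
    -- conjugate `w` into `B`
    have hMf : FactorizedIn A B M := factorizedIn_of_le c.fac Subgroup.le_normalizer
    have hcard : Nat.card (A.subgroupOf M) * Nat.card (B.subgroupOf M) =
        Nat.card M * Nat.card (A.subgroupOf M ⊓ B.subgroupOf M : Subgroup M) := hMf.factor.card_mul.symm
    have hinf : A.subgroupOf M ⊓ B.subgroupOf M = ⊥ := eq_bot_iff.2 fun x hx =>
      Subtype.ext (c.eq_one_of_mem hx.1 hx.2)
    rw [hinf, Subgroup.card_bot, mul_one] at hcard
    have hcA : Nat.card (A.subgroupOf M) = Nat.card A :=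
      Nat.card_congr (Subgroup.subgroupOfEquivOfLe (Subgroup.le_normalizer (H := A))).toEquiv
    have hcB : Nat.card (B.subgroupOf M) ∣ Nat.card B := by
      rw [← Subgroup.card_map_of_injective M.subtype_injective, Subgroup.subgroupOf_map_subtype]
      exact Subgroup.card_dvd_of_le inf_le_left
    have hidx : (B.subgroupOf M).index = Nat.card A := by
      have h := (B.subgroupOf M).card_mul_index
      rw [← hcard, hcA, mul_comm (Nat.card A)] at h
      exact Nat.eq_of_mul_eq_mul_left Nat.card_pos h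
    have htM : t ∣ Nat.card (B.subgroupOf M) := by
      have h' : t ∣ Nat.card M := by rw [← hwo, ← Subgroup.orderOf_mk w hwM]; exact orderOf_dvd_natCard _
      rw [← hcard, hcA] at h'
      exact ((ht.dvd_mul.1 h').resolve_left (not_dvd_of_coprime ht c.cop.symm htB))
    obtain ⟨m, hm⟩ := CfsgLib.Hall.wielandt_nilpotent_hall (B.subgroupOf M)
      (Subgroup.zpowers (⟨w, hwM⟩ : M)) (isNilpotent_subgroupOf c.hB M)
      (hidx ▸ c.cop.symm.coprime_dvd_left hcB) fun p hp hpw => by
        rw [Nat.card_zpowers, Subgroup.orderOf_mk, hwo] at hpw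
        rwa [(Nat.prime_dvd_prime_iff_eq hp ht).1 hpw]
    obtain ⟨β, hβ, hβw⟩ := hm (Subgroup.mem_zpowers _)
    obtain ⟨a, ha, b, hb, he⟩ := hMf m m.2
    have hy : a⁻¹ * w * a ∈ B := by
      have e : w = (m : G) * β * (m : G)⁻¹ := (congrArg Subtype.val hβw).symm
      rw [e, he]
      have h := B.mul_mem (B.mul_mem hb.1 hβ) (B.inv_mem hb.1)
      simpa [mul_assoc] using h
    have hyM : a⁻¹ * w * a ∈ M :=
      mul_mem (mul_mem (inv_mem ha.2) hwM) ha.2
    have hy1 : a⁻¹ * w * a ≠ 1 := fun h => ht.ne_one (by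
      rw [← hwo, orderOf_eq_one_iff]
      have h' := congrArg (fun x => a * x * a⁻¹) h
      simpa [mul_assoc] using h')
    obtain ⟨d, hd, hd1⟩ := exists_ne_one_of_ne_bot hD0
    set d' := a⁻¹ * d * a with hd'
    have hd'A : d' ∈ A := A.mul_mem (A.mul_mem (A.inv_mem ha.1) (hDA hd)) ha.1
    have hd'N : d' ∈ Subgroup.normalizer (B : Set G) := by
      refine c.centralizer_le_normalizer hy hyM hy1 (Subgroup.mem_centralizer_singleton_iff.2 ?_)
      calc d' * (a⁻¹ * w * a) = a⁻¹ * (d * w) * a := by rw [hd']; group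
        _ = a⁻¹ * (w * d) * a := by rw [Subgroup.mem_centralizer_iff.1 hwC d hd]
        _ = a⁻¹ * w * a * d' := by rw [hd']; group
    have hd'1 : d' ≠ 1 := fun h => hd1 (by
      have h' := congrArg (fun x => a * x * a⁻¹) h
      simpa [hd', mul_assoc] using h')
    refine hCM fun x hx => ?_
    have h1 : a⁻¹ * x * a ∈ Subgroup.centralizer ({d'} : Set G) := Subgroup.mem_centralizer_singleton_iff.2 (by
      calc a⁻¹ * x * a * d' = a⁻¹ * (x * d) * a := by rw [hd']; group
        _ = a⁻¹ * (d * x) * a := by rw [Subgroup.mem_centralizer_iff.1 hx d hd]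
        _ = d' * (a⁻¹ * x * a) := by rw [hd']; group)
    have h2 := c.symm.centralizer_le_normalizer hd'A hd'N hd'1 h1
    have haM : a ∈ M := ha.2
    have h3 := mul_mem (mul_mem haM h2) (inv_mem haM)
    simpa [mul_assoc] using h3
  set T := A.subgroupOf C with hT
  have hWC : ∀ z ∈ Subgroup.centralizer (A : Set G), z ∈ C := fun z hz =>
    Subgroup.centralizer_le hDA hz
  have hTn : Group.IsNilpotent T := isNilpotent_subgroupOf c.hA C
  have hcA : ∀ p : ℕ, p.Prime → p ∣ Nat.card A → p ∣ Nat.card T := by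
    intro p hp hpA
    haveI := Fact.mk hp
    obtain ⟨z, hzA, hzC, -, hzo⟩ := exists_central c.hA hpA
    rw [← hzo, ← Subgroup.orderOf_mk z (hWC z hzC),
      ← Subgroup.orderOf_mk (⟨z, hWC z hzC⟩ : C) (show (⟨z, hWC z hzC⟩ : C) ∈ T from hzA)]
    exact orderOf_dvd_natCard _
  have hcT : Nat.card T ∣ Nat.card A := by
    rw [← Subgroup.card_map_of_injective C.subtype_injective, Subgroup.subgroupOf_map_subtype]
    exact Subgroup.card_dvd_of_le inf_le_left
  have hidxA : A.index ∣ Nat.card B := by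
    have h := c.fac.card_mul
    rw [c.disjoint, Subgroup.card_bot, mul_one, ← A.card_mul_index] at h
    exact (Nat.eq_of_mul_eq_mul_left Nat.card_pos h).dvd
  have hHall : (Nat.card T).Coprime T.index := by
    refine Nat.coprime_of_dvd fun p hp hpT hpi => ?_
    haveI := Fact.mk hp
    have hpA := hpT.trans hcT
    obtain ⟨z, hzA, hzC, -, hzo⟩ := exists_central c.hA hpA
    obtain ⟨Q, hQ⟩ := (show IsPGroup p (Subgroup.zpowers (⟨z, hWC z hzC⟩ : C)) from
      isPGroup_zpowers_of_orderOf (by rw [Subgroup.orderOf_mk, hzo])).exists_le_sylow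
    obtain ⟨g, hg⟩ := CfsgLib.Hall.wielandt_nilpotent_hall A ((Q : Subgroup C).map C.subtype) c.hA
      (c.cop.coprime_dvd_right hidxA) fun q hq hqQ => by
        obtain ⟨i, hi⟩ := IsPGroup.iff_card.1 (Q.2.map C.subtype)
        rw [hi] at hqQ
        rwa [(Nat.prime_dvd_prime_iff_eq hq hp).1 (hq.dvd_of_dvd_pow hqQ)]
    obtain ⟨z', hz', hz'e⟩ := hg ⟨_, hQ (Subgroup.mem_zpowers _), rfl⟩
    have hz1 : z ≠ 1 := fun h => hp.ne_one (by rw [← hzo, h, orderOf_one])
    have hgM : g⁻¹ ∈ M := c.semiregular hzA hzC hz1 (by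
      have e : z = g * z' * g⁻¹ := hz'e.symm
      rw [e]
      simpa [mul_assoc] using hz')
    have hQT : (Q : Subgroup C) ≤ T := fun x hx => by
      obtain ⟨x', hx', hx'e⟩ := hg ⟨x, hx, rfl⟩
      show (x : G) ∈ A
      rw [show (x : G) = g * x' * g⁻¹ from hx'e.symm]
      exact conj_mem_of_mem_normalizer (inv_mem_iff.1 hgM) hx'
    exact Q.not_dvd_index (hpi.trans (Subgroup.index_dvd_of_le hQT))
  have hTM : ∀ x : C, (x : G) ∈ M → x ∈ T := fun x hx => hCMA x x.2 hx
  obtain ⟨R, hRn, hRc⟩ := (Cfsg.Agent.S0079.result T hTn hHall).2 fun x hx y hy ⟨g, hg⟩ => by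
    have hxy : (g : G) * x * (g : G)⁻¹ = y := congrArg Subtype.val hg
    by_cases hyD : (y : G) ∈ D
    · refine ⟨1, T.one_mem, ?_⟩
      rw [one_mul, inv_one, mul_one]
      apply Subtype.ext
      have e : (g : G)⁻¹ * y * g = x := by rw [← hxy]; group
      rw [← e, mul_assoc, Subgroup.mem_centralizer_iff.1 g.2 (y : G) hyD, inv_mul_cancel_left]
    · refine ⟨g, hTM g ?_, hg⟩
      set D' := D ⊔ Subgroup.zpowers (y : G)
      have hlt : Nat.card D < Nat.card D' := by
        refine lt_of_le_of_ne (Nat.le_of_dvd Nat.card_pos (Subgroup.card_dvd_of_le le_sup_left)) fun he => hyD ?_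
        rw [Subgroup.eq_of_le_of_card_ge (le_sup_left : D ≤ D') he.ge]
        exact Subgroup.mem_sup_right (Subgroup.mem_zpowers _)
      have hD'A : D' ≤ A := sup_le hDA (Subgroup.zpowers_le.2 hy)
      have hD'ab : D' ≤ Subgroup.centralizer (D' : Set G) := by
        have h1 : Subgroup.zpowers (y : G) ≤ Subgroup.centralizer (D : Set G) := Subgroup.zpowers_le.2 y.2
        refine sup_le ?_ ?_ <;> rw [Subgroup.le_centralizer_iff] <;> refine sup_le ?_ ?_
        · exact hDab
        · exact h1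
        · exact Subgroup.le_centralizer_iff.1 h1
        · exact Subgroup.le_centralizer (Subgroup.zpowers (y : G))
      have hle := IH (Nat.card A - Nat.card D') (by
        have := Nat.le_of_dvd Nat.card_pos (Subgroup.card_dvd_of_le hD'A); omega) D' rfl hD'A
        (fun h => hD0 (eq_bot_iff.2 (h ▸ le_sup_left))) hD'ab
      obtain ⟨q, hq, -, -, z, hzA, hzC, -, hzo⟩ := c.exists_central_prime 1
      have hcz : (g : G) * z * (g : G)⁻¹ ∈ Subgroup.centralizer (D' : Set G) := by
        refine Subgroup.mem_centralizer_iff.2 fun d hd => ?_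
        suffices h : D' ≤ Subgroup.centralizer ({(g : G) * z * (g : G)⁻¹} : Set G) from
          Subgroup.mem_centralizer_singleton_iff.1 (h hd)
        refine sup_le (fun d hd => Subgroup.mem_centralizer_singleton_iff.2 ?_)
          (Subgroup.zpowers_le.2 (Subgroup.mem_centralizer_singleton_iff.2 ?_))
        · exact Subgroup.mem_centralizer_iff.1 (C.mul_mem (C.mul_mem g.2 (hWC z hzC)) (C.inv_mem g.2)) d hd
        · rw [← hxy]
          calc (g : G) * x * (g : G)⁻¹ * ((g : G) * z * (g : G)⁻¹) = g * ((x : G) * z) * (g : G)⁻¹ := by group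
            _ = g * (z * (x : G)) * (g : G)⁻¹ := by rw [Subgroup.mem_centralizer_iff.1 hzC x hx]
            _ = _ := by group
      have hzA' : (g : G) * z * (g : G)⁻¹ ∈ A := c.mem_of_mem_normalizer (hle hcz) (by
        rw [conj_pow, orderOf_dvd_iff_pow_eq_one.1 (Subgroup.orderOf_dvd_natCard A hzA), mul_one, mul_inv_cancel])
      exact c.semiregular hzA hzC (fun h => hq.ne_one (by rw [← hzo, h, orderOf_one])) hzA'
  have hRcard : Nat.card R = T.index := by
    have h1 := hRc.card_mul_card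
    rw [← T.card_mul_index, mul_comm (Nat.card T)] at h1
    exact Nat.eq_of_mul_eq_mul_right Nat.card_pos h1
  obtain ⟨g, hg⟩ := CfsgLib.Hall.wielandt_nilpotent_hall B (R.map C.subtype) c.hB (by
      have h := c.fac.card_mul
      rw [c.disjoint, Subgroup.card_bot, mul_one, ← B.card_mul_index, mul_comm (Nat.card A)] at h
      rw [Nat.eq_of_mul_eq_mul_left Nat.card_pos h]
      exact c.cop.symm)
    fun q hq hqR => by
      rw [Subgroup.card_map_of_injective C.subtype_injective, hRcard] at hqR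
      have hqC : q ∣ Nat.card A * Nat.card B := by
        rw [← c.fac.card_mul]
        exact (hqR.trans (T.index_dvd_card.trans C.card_subgroup_dvd_card)).mul_right _
      refine (hq.dvd_mul.1 hqC).resolve_left fun hqA => ?_
      exact hq.ne_one (Nat.eq_one_of_dvd_coprimes hHall (hcA q hq hqA) hqR)
  obtain ⟨a, ha, b, hb, rfl⟩ := c.fac g
  set R' := (R.map C.subtype).map (MulAut.conj a⁻¹).toMonoidHom with hR'
  have hR'B : R' ≤ B := by
    rintro _ ⟨x, hx, rfl⟩
    obtain ⟨β, hβ, rfl⟩ := hg hx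
    change a⁻¹ * (a * b * β * (a * b)⁻¹) * (a⁻¹)⁻¹ ∈ B
    have h := B.mul_mem (B.mul_mem hb hβ) (B.inv_mem hb)
    simpa [mul_assoc] using h
  obtain ⟨q, hq, -, -, z, hzA, hzC, -, hzo⟩ := c.exists_central_prime 1
  have hz1 : z ≠ 1 := fun h => hq.ne_one (by rw [← hzo, h, orderOf_one])
  have hR0 : R' = ⊥ := c.eq_bot_of_normalized hzC hz1 hR'B (by
    refine Subgroup.mem_normalizer_fintype ?_
    rintro _ ⟨_, ⟨x, hx, rfl⟩, rfl⟩
    refine ⟨z * x * z⁻¹, ⟨⟨z, hWC z hzC⟩ * x * ⟨z, hWC z hzC⟩⁻¹, hRn.conj_mem x hx _, rfl⟩, ?_⟩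
    change a⁻¹ * (z * (x : G) * z⁻¹) * (a⁻¹)⁻¹ = z * (a⁻¹ * (x : G) * (a⁻¹)⁻¹) * z⁻¹
    have e : Commute a z := Subgroup.mem_centralizer_iff.1 hzC a ha
    rw [inv_inv]
    calc a⁻¹ * (z * (x : G) * z⁻¹) * a = (a⁻¹ * z) * x * (z⁻¹ * a) := by group
      _ = (z * a⁻¹) * x * (a * z⁻¹) := by rw [e.inv_left.eq, (e.inv_right).eq.symm]
      _ = z * (a⁻¹ * (x : G) * a) * z⁻¹ := by group)
  rw [hR', Subgroup.map_eq_bot_iff_of_injective _ (MulEquiv.injective _),
    Subgroup.map_eq_bot_iff_of_injective _ C.subtype_injective] at hR0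
  rw [hR0, Subgroup.card_bot] at hRcard
  rw [eq_comm, Subgroup.index_eq_one] at hRcard
  exact hCM fun x hx => Subgroup.le_normalizer (show (⟨x, hx⟩ : C) ∈ T by rw [hRcard]; trivial)

theorem card_le (c : Ctx A B) : Nat.card A ≤ Nat.card B := by
  obtain ⟨g, hg⟩ : ∃ g, g ∉ Subgroup.normalizer (A : Set G) := by
    by_contra h
    push Not at h
    exact c.normalizer_left_ne_top (eq_top_iff.2 fun x _ => h x)
  have hinj : Function.Injective fun p : A × A => (p.1 : G) * g * p.2 := by
    rintro ⟨a₁, a₁'⟩ ⟨a₂, a₂'⟩ h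
    have he : (a₁ : G) * g * a₁' = a₂ * g * a₂' := h
    set d := (a₂ : G)⁻¹ * a₁
    have hd : d = g * ((a₂' : G) * (a₁' : G)⁻¹) * g⁻¹ := by
      calc d = (a₂ : G)⁻¹ * ((a₁ : G) * g * a₁') * (a₁' : G)⁻¹ * g⁻¹ := by simp only [d]; group
        _ = _ := by rw [he]; group
    by_cases hd1 : d = 1
    · have e1 : (a₁ : G) = a₂ := (inv_mul_eq_one.1 hd1).symm
      rw [e1] at he
      exact Prod.ext (Subtype.ext e1) (Subtype.ext (mul_left_cancel he))
    exfalso
    have hdA : d ∈ A := A.mul_mem (A.inv_mem a₂.2) a₁.2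
    obtain ⟨q, hq, -, -, z, hzA, hzC, -, hzo⟩ := c.exists_central_prime 1
    have hle := c.abelian_centralizer_le _ (Subgroup.zpowers d) rfl (Subgroup.zpowers_le.2 hdA)
      (Subgroup.zpowers_ne_bot.2 hd1) (Subgroup.le_centralizer _)
    refine hg (c.semiregular hzA hzC (fun h => hq.ne_one (by rw [← hzo, h, orderOf_one]))
      (c.mem_of_mem_normalizer (hle ?_) (by
        rw [conj_pow, orderOf_dvd_iff_pow_eq_one.1 (Subgroup.orderOf_dvd_natCard A hzA), mul_one, mul_inv_cancel])))
    refine Subgroup.mem_centralizer_iff.2 fun x hx => ?_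
    obtain ⟨i, rfl⟩ := Subgroup.mem_zpowers_iff.1 hx
    refine (Commute.zpow_left (show Commute d (g * z * g⁻¹) from ?_) i).eq
    have h2 : Commute ((a₂' : G) * (a₁' : G)⁻¹) z :=
      Subgroup.mem_centralizer_iff.1 hzC _ (A.mul_mem a₂'.2 (A.inv_mem a₁'.2))
    rw [hd]
    exact h2.map (MulAut.conj g)
  have h1 := Nat.card_le_card_of_injective _ hinj
  have h2 := c.fac.card_mul
  rw [c.disjoint, Subgroup.card_bot, mul_one] at h2
  rw [Nat.card_prod, h2] at h1
  exact Nat.le_of_mul_le_mul_left h1 Nat.card_pos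

theorem false (c : Ctx A B) : False := by
  have h := le_antisymm c.card_le c.symm.card_le
  obtain ⟨q, hq, hqA, -⟩ := c.twoA 1
  have h1 := c.cop
  rw [← h, Nat.coprime_self] at h1
  exact hq.not_dvd_one (h1 ▸ hqA)

end Ctx

end CfsgLib.KegelWielandt
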